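import Cfsg.Agent.Lib.SuzCo0.Section
import Cfsg.Agent.Lib.Fischer2.LeechFrameNormal
import Cfsg.Prelude.Def_KGroupFacts

/-!
The centraliser of the element of order three is a stem extension of the section with kernel of order six.
-/

set_option autoImplicit false
set_option maxRecDepth 100000

namespace CfsgLib.SuzMult.Cover

open Cfsg CfsgLib.Leech CfsgLib.SuzCo0
open scoped commutatorElement

/-- Pairs of words of equal value. -/
def coverRels : List (List (Fin 9) × List (Fin 9)) :=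
  [([0, 0], [7, 7]), ([1, 1], [7]), ([2, 2], [7]), ([5, 5], [7]), ([6, 6], [7, 7]),
    ([1, 5, 6, 1, 5, 6, 1, 5, 6, 1, 5, 6, 1, 5, 6], [8]),
    ([0, 1, 0, 1, 0, 1, 0, 1, 0, 1], [8]), ([1, 2, 1, 2, 1, 2], [8]), ([1, 5, 1, 5, 1, 5], [8]),
    ([0, 1, 2, 5, 0, 1, 2, 5, 0, 1, 2, 5, 0, 1, 2, 5, 0, 1, 2, 5], [7, 7])]

theorem coverRels_ok : (coverRels.all fun r => sameWord r.1 r.2) = true := by decide +kernel

/-- The cover. -/
abbrev C6 : Type := ↥(Subgroup.centralizer (aGroup : Set Co0))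

theorem xElem_mem : xElem ∈ Subgroup.centralizer (aGroup : Set Co0) :=
  sup_le_centralizer (Subgroup.mem_sup_left (Subgroup.mem_zpowers _))

theorem negAut_mem : negAut ∈ Subgroup.centralizer (aGroup : Set Co0) :=
  sup_le_centralizer (Subgroup.mem_sup_right negAut_mem_center)

theorem letter_mem (i : Fin 9) : letterElem i ∈ Subgroup.centralizer (aGroup : Set Co0) := by
  by_cases h : i.1 < 7
  · have e : i = (⟨i.1, h⟩ : Fin 7).castSucc.castSucc := rfl
    rw [e]; exact genElem_mem _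
  · rcases (show i = 7 ∨ i = 8 by omega) with rfl | rfl
    · exact xElem_mem
    · exact letterElem_eight ▸ negAut_mem

/-- The value of a letter in the abelianisation. -/
noncomputable def phi (i : Fin 9) : Abelianization C6 := Abelianization.of ⟨letterElem i, letter_mem i⟩

theorem phi_eq {u v : List (Fin 9)} (h : (u, v) ∈ coverRels) : (u.map phi).prod = (v.map phi).prod := by
  have hs := coverRels_ok
  simp only [List.all_eq_true] at hs
  have e := eq_of_sameWord (hs _ h)
  have key : ∀ w : List (Fin 9), (w.map phi).prod =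
      Abelianization.of ⟨(w.map letterElem).prod, list_prod_mem fun g hg => by
        obtain ⟨i, -, rfl⟩ := List.mem_map.1 hg; exact letter_mem i⟩ := by
    intro w
    induction w with
    | nil => exact (map_one (Abelianization.of (G := C6))).symm
    | cons i w ih => rw [List.map_cons, List.prod_cons, ih, phi, ← map_mul]; rfl
  rw [key, key]
  exact congrArg _ (Subtype.ext e)

theorem solve_scalars {A : Type*} [CommGroup A] {a b c f g X N : A} (hX : X ^ 3 = 1) (hN : N ^ 2 = 1)
    (ha : a * a = X * X) (hb : b * b = X) (hc : c * c = X) (hf : f * f = X) (hg : g * g = X * X)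
    (h1 : (b * f * g) ^ 5 = N) (h2 : (a * b) ^ 5 = N) (h3 : (b * c) ^ 3 = N) (h4 : (b * f) ^ 3 = N)
    (h5 : (a * b * c * f) ^ 5 = X * X) : X = 1 ∧ N = 1 := by
  have hX1 : X = 1 := by
    have e : (b * f * g) ^ 2 = X := by
      rw [mul_pow, mul_pow, pow_two b, pow_two f, pow_two g, hb, hf, hg]
      rw [show X * X * (X * X) = X ^ 3 * X by simp [pow_succ, mul_assoc], hX, one_mul]
    have h : X ^ 5 = 1 := by
      rw [← e, ← pow_mul, mul_comm 2 5, pow_mul, h1, hN]
    calc X = X ^ 5 * X ^ 5 / (X ^ 3) ^ 3 := by rw [← pow_add, ← pow_mul]; simp [pow_succ]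
      _ = 1 := by rw [h, hX, one_pow, div_one, mul_one]
  subst hX1
  simp only [mul_one] at ha hb hc hf hg h5
  refine ⟨rfl, ?_⟩
  have odd5 : ∀ y : A, y * y = 1 → y ^ 5 = y := fun y hy => by
    rw [pow_succ, show y ^ 4 = (y * y) * (y * y) by simp [pow_succ, mul_assoc], hy, one_mul, one_mul]
  have odd3 : ∀ y : A, y * y = 1 → y ^ 3 = y := fun y hy => by
    rw [pow_succ, pow_two, hy, one_mul]
  have hm : ∀ y z : A, y * y = 1 → z * z = 1 → (y * z) * (y * z) = 1 := fun y z hy hz => by
    rw [mul_mul_mul_comm, hy, hz, one_mul]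
  rw [odd5 _ (hm _ _ ha hb)] at h2
  rw [odd3 _ (hm _ _ hb hc)] at h3
  rw [odd3 _ (hm _ _ hb hf)] at h4
  rw [odd5 _ (hm _ _ (hm _ _ (hm _ _ ha hb) hc) hf)] at h5
  have hNN : N * N = 1 := by rw [← pow_two]; exact hN
  have hcf : c * f = 1 := by
    calc c * f = (b * b) * (c * f) := by rw [hb, one_mul]
      _ = (b * c) * (b * f) := by rw [mul_mul_mul_comm]
      _ = 1 := by rw [h3, h4, hNN]
  calc N = a * b := h2.symm
    _ = a * b * (c * f) := by rw [hcf, mul_one]
    _ = 1 := by rw [← mul_assoc]; exact h5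

theorem scalars_trivial :
    Abelianization.of (⟨xElem, xElem_mem⟩ : C6) = 1 ∧ Abelianization.of (⟨negAut, negAut_mem⟩ : C6) = 1 := by
  have h7 : phi 7 = Abelianization.of (⟨xElem, xElem_mem⟩ : C6) := rfl
  have h8 : phi 8 = Abelianization.of (⟨negAut, negAut_mem⟩ : C6) :=
    congrArg _ (Subtype.ext letterElem_eight)
  rw [← h7, ← h8]
  have hX : phi 7 ^ 3 = 1 := by
    rw [h7, ← map_pow, show (⟨xElem, xElem_mem⟩ : C6) ^ 3 = 1 from Subtype.ext xElem_pow_three, map_one]
  have hN : phi 8 ^ 2 = 1 := by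
    rw [h8, ← map_pow, show (⟨negAut, negAut_mem⟩ : C6) ^ 2 = 1 from Subtype.ext (by
      show negAut ^ 2 = 1
      refine Subtype.ext (Equiv.ext fun v => ?_)
      show negAut • (negAut • v) = v
      rw [negAut_apply, negAut_apply, neg_neg]), map_one]
  have r := fun u v (h : (u, v) ∈ coverRels) => phi_eq h
  refine solve_scalars (a := phi 0) (b := phi 1) (c := phi 2) (f := phi 5) (g := phi 6) hX hN
    ?_ ?_ ?_ ?_ ?_ ?_ ?_ ?_ ?_ ?_
  · simpa using r [0, 0] [7, 7] (by simp [coverRels])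
  · simpa using r [1, 1] [7] (by simp [coverRels])
  · simpa using r [2, 2] [7] (by simp [coverRels])
  · simpa using r [5, 5] [7] (by simp [coverRels])
  · simpa using r [6, 6] [7, 7] (by simp [coverRels])
  · simpa [pow_succ, mul_assoc] using
      r [1, 5, 6, 1, 5, 6, 1, 5, 6, 1, 5, 6, 1, 5, 6] [8] (by simp [coverRels])
  · simpa [pow_succ, mul_assoc] using r [0, 1, 0, 1, 0, 1, 0, 1, 0, 1] [8] (by simp [coverRels])
  · simpa [pow_succ, mul_assoc] using r [1, 2, 1, 2, 1, 2] [8] (by simp [coverRels])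
  · simpa [pow_succ, mul_assoc] using r [1, 5, 1, 5, 1, 5] [8] (by simp [coverRels])
  · simpa [pow_succ, mul_assoc] using
      r [0, 1, 2, 5, 0, 1, 2, 5, 0, 1, 2, 5, 0, 1, 2, 5, 0, 1, 2, 5] [7, 7] (by simp [coverRels])

theorem modGroup_le_commutator : modGroup ≤ commutator C6 := by
  intro y hy
  obtain ⟨u, hu, z, hz, e⟩ := Subgroup.mem_sup_of_normal_right.1 (Subgroup.mem_subgroupOf.1 hy)
  obtain ⟨hx, hn⟩ := scalars_trivial
  rw [← Abelianization.ker_of, MonoidHom.mem_ker]
  obtain ⟨k, hk⟩ := Subgroup.mem_zpowers_iff.1 hu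
  rcases CfsgLib.Fischer2.center_co0 hz with rfl | rfl
  · rw [show y = (⟨xElem, xElem_mem⟩ : C6) ^ k from Subtype.ext (by
      rw [SubgroupClass.coe_zpow, ← e, mul_one, hk]), map_zpow, hx, one_zpow]
  · rw [show y = (⟨xElem, xElem_mem⟩ : C6) ^ k * ⟨negAut, negAut_mem⟩ from Subtype.ext (by
      rw [Subgroup.coe_mul, SubgroupClass.coe_zpow, ← e, hk]), map_mul, map_zpow, hx, hn, one_zpow, one_mul]

theorem isStemExtension : Cfsg.IsStemExtension (QuotientGroup.mk' modGroup) := by
  refine ⟨QuotientGroup.mk'_surjective _, ?_, ?_⟩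
  · rw [QuotientGroup.ker_mk']
    exact fun n hn => Subgroup.mem_center_iff.2 fun g =>
      Subtype.ext (comm_of_mem_sup (Subgroup.mem_subgroupOf.1 hn) g.2)
  · rw [QuotientGroup.ker_mk']; exact modGroup_le_commutator

theorem card_ker : Nat.card (QuotientGroup.mk' modGroup).ker = 6 := by
  rw [QuotientGroup.ker_mk', Nat.card_congr (Subgroup.subgroupOfEquivOfLe sup_le_centralizer).toEquiv,
    card_sup]

theorem isCyclic_ker : IsCyclic (QuotientGroup.mk' modGroup).ker := by
  haveI : Finite Co0 := CfsgLib.Leech.finite_Co0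
  rw [QuotientGroup.ker_mk']
  have hm : xElem * negAut ∈ aGroup ⊔ Subgroup.center Co0 :=
    mul_mem (Subgroup.mem_sup_left (Subgroup.mem_zpowers _)) (Subgroup.mem_sup_right negAut_mem_center)
  let y : modGroup := ⟨⟨_, sup_le_centralizer hm⟩, Subgroup.mem_subgroupOf.2 hm⟩
  refine isCyclic_of_orderOf_eq_card y ?_
  have h6 : Nat.card modGroup = 6 := by
    rw [Nat.card_congr (Subgroup.subgroupOfEquivOfLe sup_le_centralizer).toEquiv, card_sup]
  rw [h6, ← Subgroup.orderOf_coe, ← Subgroup.orderOf_coe]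
  show orderOf (xElem * negAut) = 6
  haveI : Fact (Nat.Prime 2) := ⟨Nat.prime_two⟩
  have hc : Commute xElem negAut := Subgroup.mem_center_iff.1 negAut_mem_center xElem
  have h2 : orderOf negAut = 2 := by
    refine orderOf_eq_prime ?_ fun h => ?_
    · refine Subtype.ext (Equiv.ext fun v => ?_)
      show negAut • (negAut • v) = v
      rw [negAut_apply, negAut_apply, neg_neg]
    · exact CfsgLib.Fischer2.negAut_ne_one h
  rw [hc.orderOf_mul_eq_mul_orderOf_of_coprime (by rw [orderOf_xElem, h2]; norm_num), orderOf_xElem, h2]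

end CfsgLib.SuzMult.Cover
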