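import Cfsg.Agent.Lib.SuzMult.ThreeLift
import Cfsg.Agent.Lib.SchurMult.OddSylow

/-!
The prime three: kernel elements in the commutator subgroup of the preimage of a Sylow subgroup are
powers of one element of order dividing three.
-/

set_option autoImplicit false
set_option maxRecDepth 100000
set_option synthInstance.maxSize 2000

namespace CfsgLib.SuzMult

open CfsgLib.SchurMult
open scoped commutatorElement

universe v

variable {Γ : Type v} [Group Γ] {G : Type v} [Group G] (e : Cfsg.Spor.Suz ≃* G) {σ : Γ →* G}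
variable (hc : σ.ker ≤ Subgroup.center Γ) (hs : Function.Surjective σ)

/-- The preimage of the subgroup of order 243. -/
noncomputable abbrev tE (σ : Γ →* G) : Subgroup Γ := (E243 e).comap σ

/-- A lift of a letter. -/
noncomputable def lg (c : Fin 2) : Γ := (hs (nG e c)).choose

theorem map_lg (c : Fin 2) : σ (lg e hs c) = nG e c := (hs (nG e c)).choose_spec

/-- A lift of a word. -/
noncomputable def lw (w : List (Fin 2)) : Γ := (w.map (lg e hs)).prod

theorem map_lw (w : List (Fin 2)) : σ (lw e hs w) = (w.map (nG e)).prod := by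
  rw [lw, map_list_prod, List.map_map]
  exact congrArg List.prod (List.map_congr_left fun c _ => map_lg e hs c)

/-- The complement given by the element of order eleven. -/
noncomputable def sc (v : V) : Γ := ⁅lg e hs 0, lev e hs (mvA matA v)⁆

theorem mvA_add (M : List (List (ZMod 3))) (u w : V) : mvA M (u + w) = mvA M u + mvA M w := by
  simp only [mvA, Pi.add_apply, add_smul]; abel

theorem lmat_add (c : Fin 2) (u w : V) : lmat c (u + w) = lmat c u + lmat c w := mvA_add _ u w

theorem map_sc (v : V) : σ (sc e hs v) = ev e v := by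
  rw [sc, map_commutatorElement, map_lg, map_lev, commutatorElement_def, nG_ev, mul_inv_cancel_right]
  have h := (mat_facts v).2.2
  have hi : (ev e (mvA matA v))⁻¹ = ev e (-mvA matA v) :=
    inv_eq_of_mul_eq_one_right (by rw [← ev_add, add_neg_cancel, ev_zero])
  rw [hi, ← ev_add]
  congr 1
  rw [← sub_eq_add_neg]
  exact h

include hc hs

theorem lift_comm {x y : Γ} (hx : σ x ∈ E243 e) (hy : σ y ∈ E243 e) : x * y = y * x :=
  (commute_of_map_mem e hc hs hx hy).eq

theorem conj_lev_mem (c : Fin 2) {v : V} :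
    σ (lg e hs c * lev e hs v * (lg e hs c)⁻¹) = ev e (lmat c v) := by
  rw [map_mul, map_mul, map_inv, map_lg, map_lev, nG_ev, mul_inv_cancel_right]

theorem sc_add (u w : V) : sc e hs (u + w) = sc e hs u * sc e hs w := by
  set g := lg e hs 0
  set x := lev e hs (mvA matA u)
  set y := lev e hs (mvA matA w)
  have h : sc e hs (u + w) = ⁅g, x * y⁆ :=
    comm_eq_of_map_eq hc rfl (by rw [map_mul, map_lev, map_lev, map_lev, mvA_add, ev_add])
  rw [h, sc, sc]
  have hm : σ ⁅g, y⁆ ∈ E243 e := ⟨w, (map_sc e hs w).symm⟩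
  calc ⁅g, x * y⁆ = ⁅g, x⁆ * (x * ⁅g, y⁆ * x⁻¹) := by simp only [commutatorElement_def]; group
    _ = ⁅g, x⁆ * ⁅g, y⁆ := by
      rw [lift_comm e hc hs (x := x) ⟨_, (map_lev e hs _).symm⟩ hm, mul_inv_cancel_right]

theorem sc_zero : sc e hs 0 = 1 := by
  have h := sc_add e hc hs 0 0
  rw [add_zero] at h
  exact left_eq_mul.1 h

theorem sc_conj_g (v : V) : lg e hs 0 * sc e hs v * (lg e hs 0)⁻¹ = sc e hs (lmat 0 v) := by
  rw [sc, conjugate_commutatorElement, sc]
  refine comm_eq_of_map_eq hc (by simp) ?_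
  rw [conj_lev_mem e hc hs, map_lev]
  congr 1
  exact (mat_facts v).2.1

theorem ev_cancel {z : Γ} {v : V} (hz : σ z = ev e v) : (sc e hs v)⁻¹ * z ∈ σ.ker := by
  rw [MonoidHom.mem_ker, map_mul, map_inv, map_sc, hz, inv_mul_cancel]

/-- The defect of the involution on the complement. -/
noncomputable def dv (v : V) : Γ :=
  (sc e hs (lmat 1 v))⁻¹ * (lg e hs 1 * sc e hs v * (lg e hs 1)⁻¹)

theorem dv_mem (v : V) : dv e hs v ∈ σ.ker :=
  ev_cancel e hc hs (by rw [map_mul, map_mul, map_inv, map_lg, map_sc, nG_ev, mul_inv_cancel_right])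

theorem sc_conj_b (v : V) :
    lg e hs 1 * sc e hs v * (lg e hs 1)⁻¹ = sc e hs (lmat 1 v) * dv e hs v := by
  rw [dv, mul_inv_cancel_left]

theorem dv_add (u w : V) : dv e hs (u + w) = dv e hs u * dv e hs w := by
  have h := sc_conj_b e hc hs (u + w)
  rw [sc_add e hc hs, lmat_add, sc_add e hc hs,
    show lg e hs 1 * (sc e hs u * sc e hs w) * (lg e hs 1)⁻¹ =
      (lg e hs 1 * sc e hs u * (lg e hs 1)⁻¹) * (lg e hs 1 * sc e hs w * (lg e hs 1)⁻¹) by group,
    sc_conj_b e hc hs, sc_conj_b e hc hs] at h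
  have hk := ker_comm hc (dv_mem e hc hs u) (sc e hs (lmat 1 w))
  rw [mul_assoc, ← mul_assoc (dv e hs u), ← hk] at h
  simp only [mul_assoc] at h
  exact (mul_left_cancel (mul_left_cancel h)).symm

theorem dv_zero : dv e hs 0 = 1 := by
  have h := dv_add e hc hs 0 0
  rw [add_zero] at h
  exact left_eq_mul.1 h

theorem sc_conj_word : ∀ (w : List (Fin 2)) (v : V),
    lw e hs w * sc e hs v * (lw e hs w)⁻¹ = sc e hs (act w v) * dv e hs (tail w v)
  | [], v => by simp [lw, act, tail, dv_zero e hc hs]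
  | c :: w, v => by
    have ih := sc_conj_word w v
    rw [show lw e hs (c :: w) = lg e hs c * lw e hs w by simp [lw],
      show lg e hs c * lw e hs w * sc e hs v * (lg e hs c * lw e hs w)⁻¹ =
        lg e hs c * (lw e hs w * sc e hs v * (lw e hs w)⁻¹) * (lg e hs c)⁻¹ by group, ih]
    have hk := ker_comm hc (dv_mem e hc hs (tail w v)) (lg e hs c)⁻¹
    rw [show lg e hs c * (sc e hs (act w v) * dv e hs (tail w v)) * (lg e hs c)⁻¹ =
      lg e hs c * sc e hs (act w v) * (dv e hs (tail w v) * (lg e hs c)⁻¹) by group, ← hk, ← mul_assoc]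
    rcases (show c = 0 ∨ c = 1 by omega) with rfl | rfl
    · rw [sc_conj_g e hc hs]
      simp [act, tail]
    · rw [sc_conj_b e hc hs, mul_assoc, ← dv_add e hc hs]
      simp [act, tail, add_comm]

theorem dv_tau {r : List (Fin 2) × List (Fin 2) × List (ZMod 3) × Fin 5} (hr : r ∈ loops) (v : V) :
    dv e hs (tail r.1 v - tail r.2.1 v) = 1 := by
  set a := lw e hs r.1
  set b := lw e hs r.2.1
  have hx : σ (b⁻¹ * a) = ev e (vec r.2.2.1) := by
    rw [map_mul, map_inv, map_lw, map_lw, loops_rel e hr, inv_mul_cancel_left]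
  have hcm := lift_comm e hc hs (x := b⁻¹ * a) ⟨_, hx.symm⟩ (y := sc e hs v) ⟨_, (map_sc e hs v).symm⟩
  have he : a * sc e hs v * a⁻¹ = b * sc e hs v * b⁻¹ := by
    calc a * sc e hs v * a⁻¹ = b * ((b⁻¹ * a) * sc e hs v) * (b⁻¹ * a)⁻¹ * b⁻¹ := by group
      _ = b * sc e hs v * b⁻¹ := by rw [hcm]; group
  rw [sc_conj_word e hc hs, sc_conj_word e hc hs, loops_act r hr v] at he
  have h := mul_left_cancel he
  have h2 := dv_add e hc hs (tail r.1 v - tail r.2.1 v) (tail r.2.1 v)
  rw [sub_add_cancel, h] at h2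
  exact (right_eq_mul.1 h2)

/-- The bounding element. -/
noncomputable def uK : Γ := dv e hs (vec rest)

theorem dv_nsmul (n : ℕ) (v : V) : dv e hs (n • v) = dv e hs v ^ n := by
  induction n with
  | zero => rw [zero_smul, dv_zero e hc hs, pow_zero]
  | succ n ih => rw [succ_nsmul, dv_add e hc hs, ih, pow_succ]

theorem uK_cube : uK e hs ^ 3 = 1 := by
  rw [uK, ← dv_nsmul e hc hs, show (3 : ℕ) • vec rest = 0 from funext fun i => by
    show 3 • vec rest i = 0
    generalize vec rest i = a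
    revert a; decide, dv_zero e hc hs]

theorem dv_mem_zpowers (v : V) : dv e hs v ∈ Subgroup.zpowers (uK e hs) := by
  let D : AddSubgroup V :=
    { carrier := {v | dv e hs v ∈ Subgroup.zpowers (uK e hs)}
      zero_mem' := by show dv e hs 0 ∈ Subgroup.zpowers (uK e hs); rw [dv_zero e hc hs]; exact one_mem _
      add_mem' := fun {a b} ha hb => by
        show dv e hs (a + b) ∈ Subgroup.zpowers (uK e hs); rw [dv_add e hc hs]; exact mul_mem ha hb
      neg_mem' := fun {a} ha => by
        show dv e hs (-a) ∈ Subgroup.zpowers (uK e hs)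
        have h := dv_add e hc hs a (-a)
        rw [add_neg_cancel, dv_zero e hc hs] at h
        rw [eq_inv_of_mul_eq_one_right h.symm]
        exact inv_mem ha }
  have hsm : ∀ (c : ZMod 3) {x : V}, x ∈ D → c • x ∈ D := fun c x hx => by
    rw [show c • x = c.val • x by rw [← Nat.cast_smul_eq_nsmul (ZMod 3), ZMod.natCast_zmod_val]]
    exact AddSubgroup.nsmul_mem _ hx _
  have htau : ∀ k : ℕ, k < 4 → taus.getD k 0 ∈ D := by
    intro k hk
    have hl : taus.length = 4 := by decide +kernel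
    rw [← hl] at hk
    rw [List.getD_eq_getElem _ _ hk]
    obtain ⟨r, hr, e1⟩ := List.mem_map.1 (List.getElem_mem hk : taus[k] ∈ taus)
    show dv e hs _ ∈ Subgroup.zpowers (uK e hs)
    rw [← e1, dv_tau e hc hs hr]
    exact one_mem _
  have hu : vec rest ∈ D := Subgroup.mem_zpowers _
  have hone : ∀ i : Fin 5, (Pi.single i 1 : V) ∈ D := fun i => by
    rw [span_ok i]
    exact add_mem (add_mem (add_mem (add_mem (hsm _ (htau 0 (by norm_num))) (hsm _ (htau 1 (by norm_num))))
      (hsm _ (htau 2 (by norm_num)))) (hsm _ (htau 3 (by norm_num)))) (hsm _ hu)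
  show v ∈ D
  rw [eq_sum_single v]
  exact AddSubgroup.sum_mem _ fun i _ => hsm _ (hone i)

/-- The normal subgroup containing the commutators with the preimage. -/
noncomputable def rK : Subgroup Γ where
  carrier := {x | ∃ v, ∃ k ∈ Subgroup.zpowers (uK e hs), x = sc e hs v * k}
  one_mem' := ⟨0, 1, one_mem _, by rw [sc_zero e hc hs, mul_one]⟩
  mul_mem' := by
    rintro _ _ ⟨v, k, hk, rfl⟩ ⟨w, l, hl, rfl⟩
    refine ⟨v + w, k * l, mul_mem hk hl, ?_⟩
    have h := ker_comm hc (show k ∈ σ.ker from Subgroup.zpowers_le.2 (dv_mem e hc hs _) hk) (sc e hs w)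
    rw [sc_add e hc hs, mul_assoc, ← mul_assoc k, ← h]
    simp only [mul_assoc]
  inv_mem' := by
    rintro _ ⟨v, k, hk, rfl⟩
    refine ⟨-v, k⁻¹, inv_mem hk, ?_⟩
    have h := sc_add e hc hs (-v) v
    rw [neg_add_cancel, sc_zero e hc hs] at h
    rw [mul_inv_rev, eq_inv_of_mul_eq_one_left h.symm]
    exact (ker_comm hc (show k⁻¹ ∈ σ.ker from
      inv_mem (Subgroup.zpowers_le.2 (dv_mem e hc hs _) hk)) _).symm

theorem mem_rK {x : Γ} :
    x ∈ rK e hc hs ↔ ∃ v, ∃ k ∈ Subgroup.zpowers (uK e hs), x = sc e hs v * k := Iff.rfl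

theorem rK_le : rK e hc hs ≤ tE e σ := by
  rintro _ ⟨v, k, hk, rfl⟩
  refine ⟨v, ?_⟩
  rw [map_mul, map_sc, MonoidHom.mem_ker.1 (Subgroup.zpowers_le.2 (dv_mem e hc hs _) hk : k ∈ σ.ker),
    mul_one]

theorem rK_ker {x : Γ} [Finite G] (hx : x ∈ rK e hc hs) (hk : x ∈ σ.ker) :
    x ∈ Subgroup.zpowers (uK e hs) := by
  obtain ⟨v, k, hk', rfl⟩ := hx
  rw [MonoidHom.mem_ker, map_mul, map_sc,
    MonoidHom.mem_ker.1 (Subgroup.zpowers_le.2 (dv_mem e hc hs _) hk' : k ∈ σ.ker), mul_one,
    ← ev_zero e] at hk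
  rw [ev_injective e hk, sc_zero e hc hs, one_mul]
  exact hk'

theorem lg_conj_rK (c : Fin 2) {x : Γ} (hx : x ∈ rK e hc hs) :
    lg e hs c * x * (lg e hs c)⁻¹ ∈ rK e hc hs := by
  obtain ⟨v, k, hk, rfl⟩ := hx
  have h := ker_comm hc (show k ∈ σ.ker from Subgroup.zpowers_le.2 (dv_mem e hc hs _) hk) (lg e hs c)⁻¹
  rw [show lg e hs c * (sc e hs v * k) * (lg e hs c)⁻¹ =
    lg e hs c * sc e hs v * (k * (lg e hs c)⁻¹) by group, ← h, ← mul_assoc]
  rcases (show c = 0 ∨ c = 1 by omega) with rfl | rfl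
  · rw [sc_conj_g e hc hs]; exact ⟨_, k, hk, rfl⟩
  · rw [sc_conj_b e hc hs, mul_assoc]
    exact ⟨_, _, mul_mem (dv_mem_zpowers e hc hs v) hk, rfl⟩

variable [Finite Γ]

theorem lg_mem_normalizer (c : Fin 2) : lg e hs c ∈ Subgroup.normalizer (rK e hc hs : Set Γ) := by
  refine Subgroup.mem_normalizer_iff.2 fun x => ⟨lg_conj_rK e hc hs c, fun hx => ?_⟩
  let f : rK e hc hs → rK e hc hs := fun y => ⟨_, lg_conj_rK e hc hs c y.2⟩
  have hf : Function.Injective f := fun a b h =>
    Subtype.ext (mul_left_cancel (mul_right_cancel (congrArg Subtype.val h)))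
  obtain ⟨⟨y, hy⟩, hy'⟩ := (Finite.injective_iff_surjective.1 hf) ⟨_, hx⟩
  have hxy : y = x := mul_left_cancel (mul_right_cancel (congrArg Subtype.val hy'))
  exact hxy ▸ hy

/-- The normaliser used. -/
noncomputable def nT : Subgroup Γ := Subgroup.closure (Set.range (lg e hs)) ⊔ tE e σ

theorem tE_comm_mem_rK {x : Γ} (hx : x ∈ tE e σ) (c : Fin 2) : ⁅lg e hs c, x⁆ ∈ rK e hc hs := by
  obtain ⟨v, hv⟩ := hx
  rw [comm_eq_of_map_eq hc (a' := lg e hs c) (b' := lev e hs v) rfl (by rw [map_lev, hv])]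
  rcases (show c = 0 ∨ c = 1 by omega) with rfl | rfl
  · refine ⟨lmat 0 v - v, 1, one_mem _, ?_⟩
    rw [mul_one, sc]
    refine comm_eq_of_map_eq hc rfl ?_
    rw [map_lev, map_lev]
    exact congrArg _ ((mat_facts v).1).symm
  · rw [comm_eq_of_map_eq hc (a' := lg e hs 1) (b' := sc e hs v) rfl (by rw [map_lev, map_sc]),
      commutatorElement_def]
    show lg e hs 1 * sc e hs v * (lg e hs 1)⁻¹ * (sc e hs v)⁻¹ ∈ rK e hc hs
    rw [sc_conj_b e hc hs]
    exact mul_mem ⟨_, _, dv_mem_zpowers e hc hs v, rfl⟩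
      (inv_mem ⟨v, 1, one_mem _, (mul_one _).symm⟩)

theorem tE_mem_normalizer {x : Γ} (hx : x ∈ tE e σ) : x ∈ Subgroup.normalizer (rK e hc hs : Set Γ) := by
  refine Subgroup.mem_normalizer_iff.2 fun y => ?_
  constructor
  · intro hy
    rw [lift_comm e hc hs hx (rK_le e hc hs hy), mul_inv_cancel_right]; exact hy
  · intro hy
    have hyE : y ∈ tE e σ := by
      have h2 := mul_mem (mul_mem (inv_mem hx) (rK_le e hc hs hy)) hx
      rwa [show x⁻¹ * (x * y * x⁻¹) * x = y by group] at h2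
    rwa [lift_comm e hc hs hx hyE, mul_inv_cancel_right] at hy

theorem nT_le_normalizer : nT e hs ≤ Subgroup.normalizer (rK e hc hs : Set Γ) :=
  sup_le ((Subgroup.closure_le _).2 (by rintro _ ⟨c, rfl⟩; exact lg_mem_normalizer e hc hs c))
    fun _ hx => tE_mem_normalizer e hc hs hx

theorem comm_tE_mem {n : Γ} (hn : n ∈ nT e hs) {x : Γ} (hx : x ∈ tE e σ) : ⁅n, x⁆ ∈ rK e hc hs := by
  let C : Subgroup Γ :=
    { carrier := {n | n ∈ Subgroup.normalizer (rK e hc hs : Set Γ) ∧ ∀ y ∈ tE e σ, ⁅n, y⁆ ∈ rK e hc hs}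
      one_mem' := ⟨one_mem _, fun y _ => by rw [commutatorElement_one_left]; exact one_mem _⟩
      mul_mem' := by
        rintro a b ⟨han, ha⟩ ⟨hbn, hb⟩
        refine ⟨mul_mem han hbn, fun y hy => ?_⟩
        rw [show ⁅a * b, y⁆ = a * ⁅b, y⁆ * a⁻¹ * ⁅a, y⁆ by simp only [commutatorElement_def]; group]
        exact mul_mem ((Subgroup.mem_normalizer_iff.1 han _).1 (hb y hy)) (ha y hy)
      inv_mem' := by
        rintro a ⟨han, ha⟩
        refine ⟨inv_mem han, fun y hy => ?_⟩
        rw [show ⁅a⁻¹, y⁆ = a⁻¹ * ⁅a, y⁆⁻¹ * a⁻¹⁻¹ by simp only [commutatorElement_def]; group]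
        exact (Subgroup.mem_normalizer_iff.1 (inv_mem han) _).1 (inv_mem (ha y hy)) }
  have hle : nT e hs ≤ C := sup_le
    ((Subgroup.closure_le _).2 (by
      rintro _ ⟨c, rfl⟩
      exact ⟨lg_mem_normalizer e hc hs c, fun y hy => tE_comm_mem_rK e hc hs hy c⟩))
    fun z hz => ⟨tE_mem_normalizer e hc hs hz, fun y hy => by
      rw [commutatorElement_eq_one_iff_mul_comm.2 (lift_comm e hc hs hz hy)]; exact one_mem _⟩
  exact (hle hn).2 x hx

theorem lw_mem (w : List (Fin 2)) : lw e hs w ∈ nT e hs :=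
  list_prod_mem fun g hg => by
    obtain ⟨c, -, rfl⟩ := List.mem_map.1 hg
    exact Subgroup.mem_sup_left (Subgroup.subset_closure ⟨c, rfl⟩)

theorem qRel_mem {a b : List (Fin 2)} (h : (a, b) ∈ qRels.map fun r => (r.1, r.2.1)) :
    (lw e hs b)⁻¹ * lw e hs a ∈ tE e σ := by
  obtain ⟨u, hu⟩ := qRels_rel e h
  exact ⟨u, by rw [map_mul, map_inv, map_lw, map_lw, hu, inv_mul_cancel_left]⟩

theorem xy_comm_mem : ⁅lw e hs wX, lw e hs wY⁆ ∈ rK e hc hs := by
  haveI : ((tE e σ).subgroupOf (nT e hs)).Normal := by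
    refine ⟨fun y hy n => ?_⟩
    have hy' : (y : Γ) ∈ tE e σ := Subgroup.mem_subgroupOf.1 hy
    refine Subgroup.mem_subgroupOf.2 ?_
    have h := rK_le e hc hs (comm_tE_mem e hc hs n.2 hy')
    show (n : Γ) * y * (n : Γ)⁻¹ ∈ tE e σ
    rw [show (n : Γ) * y * (n : Γ)⁻¹ = ⁅(n : Γ), (y : Γ)⁆ * y by
      simp only [commutatorElement_def]; group]
    exact mul_mem h hy'
  haveI : ((rK e hc hs).subgroupOf (nT e hs)).Normal :=
    ⟨fun y hy n => Subgroup.mem_subgroupOf.2
      ((Subgroup.mem_normalizer_iff.1 (nT_le_normalizer e hc hs n.2) _).1 (Subgroup.mem_subgroupOf.1 hy))⟩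
  set Rs := (rK e hc hs).subgroupOf (nT e hs)
  set Es := (tE e σ).subgroupOf (nT e hs)
  let π : nT e hs ⧸ Rs →* nT e hs ⧸ Es :=
    QuotientGroup.map Rs Es (MonoidHom.id _) fun y hy => rK_le e hc hs hy
  have hπc : π.ker ≤ Subgroup.center (nT e hs ⧸ Rs) := by
    intro z hz
    obtain ⟨z, rfl⟩ := QuotientGroup.mk'_surjective Rs z
    have hzE : (z : Γ) ∈ tE e σ := Subgroup.mem_subgroupOf.1 ((QuotientGroup.eq_one_iff _).1 hz)
    refine Subgroup.mem_center_iff.2 fun q => ?_
    obtain ⟨q, rfl⟩ := QuotientGroup.mk'_surjective Rs q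
    rw [← map_mul, ← map_mul]
    have hcm : (QuotientGroup.mk' Rs) ⁅q, z⁆ = 1 :=
      (QuotientGroup.eq_one_iff _).2 (Subgroup.mem_subgroupOf.2 (comm_tE_mem e hc hs q.2 hzE))
    rw [map_commutatorElement, commutatorElement_eq_one_iff_mul_comm] at hcm
    rw [map_mul, map_mul, hcm]
  have hπs : Function.Surjective π := by
    intro q
    obtain ⟨q, rfl⟩ := QuotientGroup.mk'_surjective Es q
    exact ⟨QuotientGroup.mk' Rs q, rfl⟩
  let k : List (Fin 2) → nT e hs := fun w => ⟨lw e hs w, lw_mem e hc hs w⟩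
  let q : List (Fin 2) → nT e hs ⧸ Es := fun w => QuotientGroup.mk' Es (k w)
  have kmul : ∀ a b, k (a ++ b) = k a * k b := fun a b => Subtype.ext (by simp [k, lw])
  have qmul : ∀ a b, q (a ++ b) = q a * q b := fun a b => by simp only [q, kmul, map_mul]
  have qnil : q [] = 1 := by
    have : k [] = 1 := Subtype.ext (by simp [k, lw])
    simp only [q, this, map_one]
  have qrel : ∀ a b, (a, b) ∈ (qRels.map fun r => (r.1, r.2.1)) → q a = q b := fun a b h =>
    (QuotientGroup.eq.2 (Subgroup.mem_subgroupOf.2 (qRel_mem e hc hs h))).symm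
  have qrep : ∀ (n : ℕ) (w : List (Fin 2)), q (List.replicate n w).flatten = q w ^ n := by
    intro n w
    induction n with
    | zero => simpa using qnil
    | succ n ih => rw [List.replicate_succ, List.flatten_cons, qmul, ih, pow_succ']
  have hsh := qRels_shape
  have hx3 : q wX ^ 3 = 1 := by
    rw [pow_succ, pow_two, ← qmul, ← qmul, qrel _ [] (by rw [hsh]; simp), qnil]
  have hcomm : q wX * q wY = q wY * q wX := by
    rw [← qmul, ← qmul]; exact qrel _ _ (by rw [hsh]; simp)
  have hgx : q wH * q wX * (q wH)⁻¹ = q wX ^ coef9.1 * q wY ^ coef9.2.1 := by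
    rw [mul_inv_eq_iff_eq_mul, ← qrep, ← qrep, ← qmul, ← qmul, ← qmul]
    exact qrel _ _ (by rw [hsh]; simp)
  have hgy : q wH * q wY * (q wH)⁻¹ = q wX ^ coef9.2.2.1 * q wY ^ coef9.2.2.2 := by
    rw [mul_inv_eq_iff_eq_mul, ← qrep, ← qrep, ← qmul, ← qmul, ← qmul]
    exact qrel _ _ (by rw [hsh]; simp)
  have hfin := OddSylow.comm_eq_one_of_det hπc hπs Nat.prime_three
    (X := QuotientGroup.mk' Rs (k wX)) (Y := QuotientGroup.mk' Rs (k wY)) (g := q wH)
    hcomm hx3 hgx hgy det9
  rw [← map_commutatorElement] at hfin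
  exact Subgroup.mem_subgroupOf.1 ((QuotientGroup.eq_one_iff _).1 hfin)

/-- The Sylow subgroup. -/
noncomputable def P3 : Subgroup G :=
  Subgroup.closure (Set.range (ev e) ∪ {(wX.map (nG e)).prod, (wY.map (nG e)).prod})

theorem commutator_le_rK : ⁅(P3 e).comap σ, (P3 e).comap σ⁆ ≤ rK e hc hs := by
  set S : Set Γ := Set.range (lev e hs) ∪ {lw e hs wX, lw e hs wY}
  have himg : Set.range (ev e) ∪ {(wX.map (nG e)).prod, (wY.map (nG e)).prod} = σ '' S := by
    rw [Set.image_union, Set.image_pair, map_lw, map_lw, ← Set.range_comp]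
    congr 1
    exact congrArg Set.range (funext fun v => (map_lev e hs v).symm)
  rw [P3, himg]
  have hlevE : ∀ v, lev e hs v ∈ tE e σ := fun v => ⟨v, (map_lev e hs v).symm⟩
  have hmem : ∀ s ∈ S, s ∈ nT e hs := by
    rintro s (⟨v, rfl⟩ | rfl | rfl)
    · exact Subgroup.mem_sup_right (hlevE v)
    · exact lw_mem e hc hs _
    · exact lw_mem e hc hs _
  refine commutator_comap_closure_le hc S _ (fun s hsS => nT_le_normalizer e hc hs (hmem s hsS)) ?_
  have hsymm : ∀ a b : Γ, ⁅a, b⁆ ∈ rK e hc hs → ⁅b, a⁆ ∈ rK e hc hs := fun a b h => by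
    rw [← commutatorElement_inv]; exact inv_mem h
  rintro s hsS t (⟨v, rfl⟩ | rfl | rfl)
  · exact comm_tE_mem e hc hs (hmem s hsS) (hlevE v)
  all_goals
    rcases hsS with ⟨v, rfl⟩ | rfl | rfl
    · exact hsymm _ _ (comm_tE_mem e hc hs (lw_mem e hc hs _) (hlevE v))
  · rw [commutatorElement_self]; exact one_mem _
  · exact hsymm _ _ (xy_comm_mem e hc hs)
  · exact xy_comm_mem e hc hs
  · rw [commutatorElement_self]; exact one_mem _

omit hc hs [Finite Γ] in
theorem P3_index [Finite G] : ¬ 3 ∣ (P3 e).index := by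
  have hcard : Nat.card G = 2 ^ 13 * 3 ^ 7 * 5 ^ 2 * 7 * 11 * 13 := by
    rw [← Nat.card_congr e.toEquiv, Cfsg.Agent.S1694.result.2]; norm_num
  have hdvd : 3 ^ 7 ∣ Nat.card (P3 e) := by
    set x := (wX.map (nG e)).prod
    set y := (wY.map (nG e)).prod
    have hE : E243 e ≤ P3 e := fun _ hz => Subgroup.subset_closure (Or.inl hz)
    have hxP : x ∈ P3 e := Subgroup.subset_closure (Or.inr (Or.inl rfl))
    have hyP : y ∈ P3 e := Subgroup.subset_closure (Or.inr (Or.inr rfl))
    have hnE : ∀ (w : List (Fin 2)), (w.map (nG e)).prod ∈ Subgroup.normalizer (E243 e : Set G) := by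
      intro w
      refine list_prod_mem fun g hg => ?_
      obtain ⟨c, -, rfl⟩ := List.mem_map.1 hg
      have hf : ∀ z ∈ E243 e, nG e c * z * (nG e c)⁻¹ ∈ E243 e := by
        rintro _ ⟨v, rfl⟩
        exact ⟨lmat c v, by rw [nG_ev, mul_inv_cancel_right]⟩
      refine Subgroup.mem_normalizer_iff.2 fun z => ⟨hf z, fun hz => ?_⟩
      let f : E243 e → E243 e := fun a => ⟨_, hf a a.2⟩
      have hfi : Function.Injective f := fun a b h =>
        Subtype.ext (mul_left_cancel (mul_right_cancel (congrArg Subtype.val h)))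
      obtain ⟨⟨a, ha⟩, ha'⟩ := (Finite.injective_iff_surjective.1 hfi) ⟨_, hz⟩
      exact (mul_left_cancel (mul_right_cancel (congrArg Subtype.val ha'))) ▸ ha
    have hPn : P3 e ≤ Subgroup.normalizer (E243 e : Set G) := by
      refine (Subgroup.closure_le _).2 ?_
      rintro z (hz | rfl | rfl)
      · exact Subgroup.le_normalizer (show z ∈ E243 e from hz)
      · exact hnE _
      · exact hnE _
    haveI : ((E243 e).subgroupOf (P3 e)).Normal :=
      ⟨fun z hz n => Subgroup.mem_subgroupOf.2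
        ((Subgroup.mem_normalizer_iff.1 (hPn n.2) _).1 (Subgroup.mem_subgroupOf.1 hz))⟩
    have hc5 : Nat.card ((E243 e).subgroupOf (P3 e)) = 3 ^ 5 := by
      rw [Nat.card_congr (Subgroup.subgroupOfEquivOfLe hE).toEquiv]
      show Nat.card (Set.range (ev e)) = _
      rw [← Nat.card_congr (Equiv.ofInjective _ (ev_injective e))]
      simp [Nat.card_eq_fintype_card]
    set Q := (P3 e) ⧸ (E243 e).subgroupOf (P3 e)
    let mk := QuotientGroup.mk' ((E243 e).subgroupOf (P3 e))
    let X : Q := mk ⟨x, hxP⟩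
    let Y : Q := mk ⟨y, hyP⟩
    have hrel : ∀ a b : List (Fin 2), (a, b) ∈ (qRels.map fun r => (r.1, r.2.1)) →
        ∀ (ha : (a.map (nG e)).prod ∈ P3 e) (hb : (b.map (nG e)).prod ∈ P3 e),
          mk ⟨_, ha⟩ = mk ⟨_, hb⟩ := fun a b h ha hb => by
      obtain ⟨u, hu⟩ := qRels_rel e h
      refine (QuotientGroup.eq.2 (Subgroup.mem_subgroupOf.2 ?_)).symm
      show ((b.map (nG e)).prod)⁻¹ * (a.map (nG e)).prod ∈ E243 e
      rw [hu, inv_mul_cancel_left]
      exact ⟨u, rfl⟩
    have hsh := qRels_shape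
    have hX3 : X ^ 3 = 1 := by
      have h := hrel (wX ++ wX ++ wX) [] (by rw [hsh]; simp)
        (by rw [List.map_append, List.map_append, List.prod_append, List.prod_append]
            exact mul_mem (mul_mem hxP hxP) hxP) (by simp)
      rw [← map_pow]
      refine Eq.trans ?_ (h.trans ?_)
      · exact congrArg mk (Subtype.ext (by simp [x, pow_succ, mul_assoc]))
      · exact (congrArg mk (Subtype.ext (by simp))).trans (map_one mk)
    have hY3 : Y ^ 3 = 1 := by
      have h := hrel (wY ++ wY ++ wY) [] (by rw [hsh]; simp)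
        (by rw [List.map_append, List.map_append, List.prod_append, List.prod_append]
            exact mul_mem (mul_mem hyP hyP) hyP) (by simp)
      rw [← map_pow]
      refine Eq.trans ?_ (h.trans ?_)
      · exact congrArg mk (Subtype.ext (by simp [y, pow_succ, mul_assoc]))
      · exact (congrArg mk (Subtype.ext (by simp))).trans (map_one mk)
    have hXY : Commute X Y := by
      have h := hrel (wX ++ wY) (wY ++ wX) (by rw [hsh]; simp)
        (by rw [List.map_append, List.prod_append]; exact mul_mem hxP hyP)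
        (by rw [List.map_append, List.prod_append]; exact mul_mem hyP hxP)
      show X * Y = Y * X
      rw [← map_mul, ← map_mul]
      refine Eq.trans ?_ (h.trans ?_)
      · exact congrArg mk (Subtype.ext (by simp [x, y]))
      · exact congrArg mk (Subtype.ext (by simp [x, y]))
    have h9 : 3 ^ 2 ∣ Nat.card Q := by
      let φ : Multiplicative (ZMod 3) × Multiplicative (ZMod 3) → Q := fun p =>
        X ^ (p.1.toAdd.val) * Y ^ (p.2.toAdd.val)
      have hφ : ∀ p p', φ (p * p') = φ p * φ p' := by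
        intro p p'
        simp only [φ, Prod.fst_mul, Prod.snd_mul, toAdd_mul, ZMod.val_add]
        rw [← pow_eq_pow_mod _ hX3, ← pow_eq_pow_mod _ hY3, pow_add, pow_add,
          mul_assoc, ← mul_assoc (X ^ p'.1.toAdd.val), (hXY.pow_pow _ _).eq]
        simp only [mul_assoc]
      have hinj : Function.Injective (MonoidHom.mk' φ hφ) := by
        refine (injective_iff_map_eq_one _).2 ?_
        rintro ⟨i, j⟩ hij
        set w := (List.replicate i.toAdd.val wX).flatten ++ (List.replicate j.toAdd.val wY).flatten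
        have hrep : ∀ (n : ℕ) (u : List (Fin 2)),
            ((List.replicate n u).flatten.map (nG e)).prod = (u.map (nG e)).prod ^ n := fun n u => by
          induction n with
          | zero => simp
          | succ n ih => rw [List.replicate_succ, List.flatten_cons, List.map_append, List.prod_append, ih, pow_succ']
        have hw : (w.map (nG e)).prod ∈ E243 e := by
          have h0 : mk (⟨x, hxP⟩ ^ i.toAdd.val * ⟨y, hyP⟩ ^ j.toAdd.val) = 1 := by
            rw [map_mul, map_pow, map_pow]; exact hij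
          have := Subgroup.mem_subgroupOf.1 ((QuotientGroup.eq_one_iff _).1 h0)
          simpa [w, hrep] using this
        obtain ⟨u, hu⟩ := hw
        have hact : ∀ v, act w v = v := fun v => by
          refine ev_injective e (mul_right_cancel (b := (w.map (nG e)).prod) ?_)
          rw [← nG_prod_ev, ← hu]
          exact (ev_comm e u v).eq
        obtain ⟨h1, h2⟩ := xy_act.2 ⟨i.toAdd.val, ZMod.val_lt _⟩ ⟨j.toAdd.val, ZMod.val_lt _⟩ hact
        simp only [Fin.ext_iff, Fin.val_zero, ZMod.val_eq_zero] at h1 h2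
        exact Prod.ext (toAdd_eq_zero.1 h1) (toAdd_eq_zero.1 h2)
      have := Subgroup.card_subgroup_dvd_card (MonoidHom.mk' φ hφ).range
      rw [← Nat.card_congr (MonoidHom.ofInjective hinj).toEquiv] at this
      simpa [Nat.card_prod] using this
    rw [Subgroup.card_eq_card_quotient_mul_card_subgroup ((E243 e).subgroupOf (P3 e)), hc5,
      show 3 ^ 7 = 3 ^ 2 * 3 ^ 5 by norm_num]
    exact Nat.mul_dvd_mul_right h9 _
  intro h
  have h8 : 3 ^ 8 ∣ Nat.card G := by
    rw [← (P3 e).card_mul_index, pow_succ]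
    exact mul_dvd_mul hdvd h
  rw [hcard] at h8
  norm_num at h8

include e hc hs

/-- The local bound at the prime three. -/
theorem three_local [Finite G] : ∃ H : Subgroup G, ¬ 3 ∣ H.index ∧ ∃ c : Γ, c ^ 3 = 1 ∧
    ∀ z ∈ ⁅H.comap σ, H.comap σ⁆, z ∈ σ.ker → z ∈ Subgroup.zpowers c :=
  ⟨P3 e, P3_index e, uK e hs, uK_cube e hc hs,
    fun z hz hk => rK_ker e hc hs (commutator_le_rK e hc hs hz) hk⟩

end CfsgLib.SuzMult
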