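import Cfsg.Agent.Lib.SuzMult.Two
import Cfsg.Agent.Lib.SuzMult.Three
import Cfsg.Agent.Lib.SuzMult.Cover
import Cfsg.Agent.Lib.SchurMult.Criterion
import Cfsg.Agent.Lib.SchurMult.OddSylow

/-!
The Schur multiplier of the sporadic Suzuki group has order six.
-/

set_option autoImplicit false
set_option maxRecDepth 100000
set_option synthInstance.maxSize 2000

namespace CfsgLib.SuzMult

open CfsgLib.SchurMult CfsgLib.SchurMult.PermCert
open scoped commutatorElement

universe v

variable {G : Type v} [Group G] [Finite G] (e : Cfsg.Spor.Suz ≃* G)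
variable {Γ : Type v} [Group Γ] {σ : Γ →* G} (hc : σ.ker ≤ Subgroup.center Γ) (hs : Function.Surjective σ)

include e in
theorem card_G : Nat.card G = 2 ^ 13 * 3 ^ 7 * 5 ^ 2 * 7 * 11 * 13 := by
  rw [← Nat.card_congr e.toEquiv, Cfsg.Agent.S1694.result.2]; norm_num

/-- A cyclic subgroup of index prime to `p` when `p` divides the order once. -/
theorem cyclic_local {p : ℕ} (hp : p.Prime) (h1 : p ∣ Nat.card G) (h2 : ¬ p ^ 2 ∣ Nat.card G)
    (hc : σ.ker ≤ Subgroup.center Γ) (hs : Function.Surjective σ) :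
    ∃ H : Subgroup G, ¬ p ∣ H.index ∧ ∀ z ∈ ⁅H.comap σ, H.comap σ⁆, z = 1 := by
  haveI : Fact p.Prime := ⟨hp⟩
  obtain ⟨x, hx⟩ := exists_prime_orderOf_dvd_card' p h1
  obtain ⟨c, rfl⟩ := hs x
  refine ⟨Subgroup.zpowers (σ c), fun h => h2 ?_, fun z hz => ?_⟩
  · rw [← (Subgroup.zpowers (σ c)).card_mul_index, Nat.card_zpowers, hx, pow_two]
    exact Nat.mul_dvd_mul_left p h
  · rwa [commutator_comap_zpowers_eq_bot hc c, Subgroup.mem_bot] at hz

include e hc hs in
/-- The prime five. -/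
theorem five_local : ∃ H : Subgroup G, ¬ 5 ∣ H.index ∧ ∀ z ∈ ⁅H.comap σ, H.comap σ⁆, z = 1 := by
  have h := five_ok
  simp only [Bool.and_eq_true, decide_eq_true_eq] at h
  obtain ⟨⟨⟨⟨e1, ex⟩, ey⟩, egx⟩, egy⟩ := h
  replace e1 := (realises e).eq_of_sameWord e1
  replace ex := (realises e).eq_of_sameWord ex
  replace ey := (realises e).eq_of_sameWord ey
  replace egx := (realises e).eq_of_sameWord egx
  replace egy := (realises e).eq_of_sameWord egy
  simp only [lprod_append, lprod_replicate, lprod, mul_one] at e1 ex ey egx egy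
  obtain ⟨hkeys, hlen, hw, hpts⟩ := keys25_ok
  set x := el e (idx5.getD 0 0)
  set y := el e (idx5.getD 1 0)
  obtain ⟨X, hX⟩ := hs x
  obtain ⟨Y, hY⟩ := hs y
  have hcomm : Commute (σ X) (σ Y) := by rw [hX, hY]; exact e1
  have hw1 : ⁅X, Y⁆ = 1 :=
    OddSylow.comm_eq_one_of_det hc hs (p := 5) (by norm_num) hcomm (by rw [hX]; exact ex)
      (g := el e (idx5.getD 2 0)) (by rw [hX, hY]; exact mul_inv_eq_iff_eq_mul.2 egx)
      (by rw [hX, hY]; exact mul_inv_eq_iff_eq_mul.2 egy) det5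
  refine ⟨Subgroup.closure (σ '' {X, Y}), ?_, fun z hz => ?_⟩
  · rw [Set.image_pair, hX, hY]
    have hge := (realises e).length_le_card (pts := pts25) hpts hkeys (Subgroup.closure {x, y}) fun w hw' =>
      Tables.lprod_mem fun i hi => Subgroup.subset_closure (by
        rcases hw w hw' i hi with rfl | rfl
        · exact Or.inl rfl
        · exact Or.inr rfl)
    have hle : Nat.card (Subgroup.closure {x, y}) ≤ 5 ^ 2 := Tables.natCard_closure_le_square (by norm_num) ex ey e1
    have hcard : Nat.card (Subgroup.closure {x, y}) = 5 ^ 2 := le_antisymm hle (by rw [hlen] at hge; simpa using hge)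
    intro h
    have h3 : 5 ^ 3 ∣ Nat.card G := by
      rw [← (Subgroup.closure {x, y}).card_mul_index, hcard, pow_succ]
      exact Nat.mul_dvd_mul_left _ h
    rw [card_G e] at h3
    norm_num at h3
  · have hyx : ⁅Y, X⁆ = 1 := by rw [← commutatorElement_inv, hw1, inv_one]
    rwa [commutator_comap_closure_eq_bot hc {X, Y} (by
      rintro s (rfl | rfl) t (rfl | rfl)
      · exact commutatorElement_self _
      · exact hw1
      · exact hyx
      · exact commutatorElement_self _), Subgroup.mem_bot] at hz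

open CfsgLib.SuzCo0 in
theorem hasMultiplier_section : Cfsg.HasCyclicSchurMultiplier CfsgLib.SuzCo0.Cent.Sx 6 := by
  haveI : Finite Cfsg.Co0 := CfsgLib.Leech.finite_Co0
  refine hasCyclicSchurMultiplier_of_local (by norm_num) (Δ := Cover.C6) (QuotientGroup.mk' modGroup)
    Cover.isStemExtension Cover.isCyclic_ker Cover.card_ker fun Γ _ _ σ hσ p hp hpG => ?_
  have f2 : Nat.factorization 6 2 = 1 := by
    rw [Nat.factorization_def _ Nat.prime_two, show (6 : ℕ) = 2 ^ 1 * 3 by norm_num,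
      padicValNat.mul (by norm_num) (by norm_num), padicValNat.prime_pow,
      padicValNat.eq_zero_of_not_dvd (by norm_num), add_zero]
  have f3 : Nat.factorization 6 3 = 1 := by
    rw [Nat.factorization_def _ Nat.prime_three, show (6 : ℕ) = 3 ^ 1 * 2 by norm_num]
    haveI : Fact (Nat.Prime 3) := ⟨Nat.prime_three⟩
    rw [padicValNat.mul (by norm_num) (by norm_num), padicValNat.prime_pow,
      padicValNat.eq_zero_of_not_dvd (by norm_num), add_zero]
  have hS := card_G sectionEquiv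
  by_cases h2 : p = 2
  · subst h2
    obtain ⟨H, hH, c, hc, hz⟩ := Two.two_local hσ.2.1 hσ.1
    exact ⟨H, hH, c, by rw [f2, pow_one]; exact hc, hz⟩
  by_cases h3 : p = 3
  · subst h3
    obtain ⟨H, hH, c, hc, hz⟩ := three_local sectionEquiv hσ.2.1 hσ.1
    exact ⟨H, hH, c, by rw [f3, pow_one]; exact hc, hz⟩
  suffices ∃ H : Subgroup CfsgLib.SuzCo0.Cent.Sx, ¬ p ∣ H.index ∧ ∀ z ∈ ⁅H.comap σ, H.comap σ⁆, z = 1 by
    obtain ⟨H, hH, hz⟩ := this
    exact ⟨H, hH, 1, one_pow _, fun z hzm _ => by rw [hz z hzm]; exact one_mem _⟩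
  by_cases h5 : p = 5
  · subst h5; exact five_local sectionEquiv hσ.2.1 hσ.1
  refine cyclic_local hp hpG ?_ hσ.2.1 hσ.1
  intro hsq
  rw [hS] at hsq
  have hpd : p ∣ 2 ^ 13 * 3 ^ 7 * 5 ^ 2 * 7 * 11 * 13 := (dvd_pow_self p two_ne_zero).trans hsq
  simp only [hp.dvd_mul] at hpd
  rcases hpd with ((((h | h) | h) | h) | h) | h
  · exact h2 ((Nat.prime_dvd_prime_iff_eq hp Nat.prime_two).1 (hp.dvd_of_dvd_pow h))
  · exact h3 ((Nat.prime_dvd_prime_iff_eq hp Nat.prime_three).1 (hp.dvd_of_dvd_pow h))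
  · exact h5 ((Nat.prime_dvd_prime_iff_eq hp (by norm_num)).1 (hp.dvd_of_dvd_pow h))
  · obtain rfl := (Nat.prime_dvd_prime_iff_eq hp (by norm_num)).1 h; norm_num at hsq
  · obtain rfl := (Nat.prime_dvd_prime_iff_eq hp (by norm_num)).1 h; norm_num at hsq
  · obtain rfl := (Nat.prime_dvd_prime_iff_eq hp (by norm_num)).1 h; norm_num at hsq

end CfsgLib.SuzMult
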