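import Cfsg.Agent.Lib.SuzMult.Data
import Cfsg.Agent.Lib.SporRecognition.Cert.Suz1782.Perm
import Cfsg.Agent.S1694

/-!
The permutation representation of the sporadic Suzuki group on 1782 points and the listed elements.
-/

set_option autoImplicit false
set_option maxRecDepth 100000

namespace CfsgLib.SuzMult

open CfsgLib.SporRecognition.CosetCert CfsgLib.SporRecognition.Cert
open CfsgLib.SchurMult CfsgLib.SchurMult.PermCert
open Cfsg.Spor.Suz (Gen)

universe v

/-- The permutation representation. -/
noncomputable def perm : Cfsg.Spor.Suz →* Equiv.Perm (Fin 1782) :=
  PresentedGroup.toGroup (f := tabPerm Suz1782.tablesOK)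
    (lift_eq_one_of_coxW (edges := Cfsg.Spor.Suz.edges) (pairs := Suz1782.pairs)
      (extra := Cfsg.Spor.Suz.extra) (extraW := Suz1782.extraW) (by decide +kernel) rfl _
      fun w hw => evalW_tabPerm_eq_one _ (Suz1782.relW_ok w (by
        have he : coxW Cfsg.Spor.Suz.edges Suz1782.pairs Suz1782.extraW = Suz1782.relW := by
          decide +kernel
        rwa [he] at hw)))

theorem perm_of (a : Gen) (u : Fin 1782) :
    ((perm (PresentedGroup.of a) u : Fin 1782) : ℕ) = Suz1782.tabs a true u := by
  rw [perm, PresentedGroup.toGroup.of, tabPerm_val]

/-- The packed tables. -/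
def T : Tables where
  n := 1782
  depth := 11
  ts := tblL

/-- The generators in order. -/
def genList : List Gen := [.a, .b, .c, .d, .e, .f, .g]

theorem gens_ok : allBelow 11 1782 (fun u => (List.range 7).all fun i =>
    Nat.beq (Suz1782.tabs (genList.getD i .a) true u) (T.img i u)) = true := by decide +kernel

/-- The definitions only use earlier elements. -/
def slpOrdered : Bool :=
  (List.range slp.length).all fun k => (slp.getD k []).all fun i => decide (i < 7 + k)

theorem slp_ordered : slpOrdered = true := by decide +kernel

theorem length_tbl : T.ts.length = 7 + slp.length := by decide +kernel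

theorem slp_ok : ((List.range slp.length).all fun k => T.sameWord [7 + k] (slp.getD k [])) = true := by
  decide +kernel

theorem moved : (List.range 1782).all (fun u => Nat.beq (T.img 0 u) u) = false := by decide +kernel

variable {G : Type v} [Group G] (e : Cfsg.Spor.Suz ≃* G)

/-- Products of earlier elements, appended one by one. -/
noncomputable def build : List (List ℕ) → List G → List G
  | [], acc => acc
  | d :: ds, acc => build ds (acc ++ [lprod (fun i => acc.getD i 1) d])

/-- The listed elements in a copy of the group. -/
noncomputable def el (i : ℕ) : G :=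
  (build slp (genList.map fun a => e (PresentedGroup.of a))).getD i 1

theorem build_getD : ∀ (ds : List (List ℕ)) (acc : List G) (i : ℕ), i < acc.length →
    (build ds acc).getD i 1 = acc.getD i 1
  | [], _, _, _ => rfl
  | d :: ds, acc, i, hi => by
    rw [build, build_getD ds _ i (by rw [List.length_append]; omega), List.getD_append _ _ _ _ hi]

theorem lprod_congr {f g : ℕ → G} : ∀ w : List ℕ, (∀ i ∈ w, f i = g i) → lprod f w = lprod g w
  | [], _ => rfl
  | i :: w, h => by
    rw [lprod, lprod, h i (List.mem_cons_self ..),
      lprod_congr w fun j hj => h j (List.mem_cons_of_mem _ hj)]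

theorem build_step : ∀ (ds : List (List ℕ)) (acc : List G) (k : ℕ), k < ds.length →
    (∀ j < ds.length, ∀ i ∈ ds.getD j [], i < acc.length + j) →
    (build ds acc).getD (acc.length + k) 1 = lprod (fun i => (build ds acc).getD i 1) (ds.getD k [])
  | [], _, k, hk, _ => absurd hk (by simp)
  | d :: ds, acc, 0, _, h => by
    rw [build, Nat.add_zero, build_getD ds _ _ (by simp), List.getD_append_right _ _ _ _ le_rfl,
      Nat.sub_self]
    simp only [List.getD_cons_zero]
    refine lprod_congr d fun i hi => ?_
    have hi' : i < acc.length := by simpa using h 0 (by simp) i (by simpa using hi)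
    rw [build_getD ds _ i (by rw [List.length_append]; omega), List.getD_append _ _ _ _ hi']
  | d :: ds, acc, k + 1, hk, h => by
    rw [build, List.getD_cons_succ,
      show acc.length + (k + 1) = (acc ++ [lprod (fun i => acc.getD i 1) d]).length + k by
        rw [List.length_append, List.length_singleton]; omega]
    refine build_step ds _ k (by simpa using hk) fun j hj i hi => ?_
    rw [List.length_append, List.length_singleton]
    have := h (j + 1) (by simpa using hj) i (by simpa using hi)
    omega

theorem el_gen {i : ℕ} (hi : i < 7) : el e i = e (PresentedGroup.of (genList.getD i .a)) := by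
  rw [el, build_getD _ _ _ (by simpa [genList] using hi)]
  interval_cases i <;> rfl

theorem el_slp {k : ℕ} (hk : k < slp.length) : el e (7 + k) = lprod (el e) (slp.getD k []) := by
  have h := slp_ordered
  simp only [slpOrdered, List.all_eq_true, List.mem_range, decide_eq_true_eq] at h
  exact build_step slp (genList.map fun a => e (PresentedGroup.of a)) k hk fun j hj i hi => h j hj i hi

theorem perm_injective : Function.Injective perm := by
  haveI := Cfsg.Agent.S1694.result.1
  rcases IsSimpleGroup.eq_bot_or_eq_top_of_normal perm.ker inferInstance with h | h
  · exact (MonoidHom.ker_eq_bot_iff _).1 h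
  · exfalso
    have hne := moved
    rw [← Bool.not_eq_true] at hne
    refine hne (List.all_eq_true.2 fun u hu => ?_)
    rw [List.mem_range] at hu
    have hg := Nat.eq_of_beq_eq_true
      (List.all_eq_true.1 (allBelow_spec gens_ok u hu) 0 (by simp))
    have := perm_of .a ⟨u, hu⟩
    rw [MonoidHom.mem_ker.1 (h ▸ Subgroup.mem_top (PresentedGroup.of Gen.a))] at this
    have e0 : T.img 0 u = u := hg.symm.trans this.symm
    rw [e0]; exact Nat.beq_refl u 

theorem realises : T.Realises (perm.comp e.symm.toMonoidHom) (el e) where
  deg := rfl
  inj := perm_injective.comp e.symm.injective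
  img := by
    intro i
    induction i using Nat.strong_induction_on with
    | _ i ih =>
      intro hi u
      by_cases h7 : i < 7
      · have hg := Nat.eq_of_beq_eq_true
          (List.all_eq_true.1 (allBelow_spec gens_ok u u.2) i (List.mem_range.2 h7))
        rw [← hg, el_gen e h7, ← perm_of]
        simp
      · obtain ⟨k, rfl⟩ := Nat.exists_eq_add_of_le (Nat.le_of_not_lt h7)
        have hk : k < slp.length := by rw [length_tbl] at hi; omega
        have ho := slp_ordered
        simp only [slpOrdered, List.all_eq_true, List.mem_range, decide_eq_true_eq] at ho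
        have hs := List.all_eq_true.1 slp_ok k (List.mem_range.2 hk)
        simp only [Tables.sameWord, Bool.and_eq_true, List.all_eq_true, decide_eq_true_eq] at hs
        have he := Nat.eq_of_beq_eq_true (allBelow_spec hs.2 u u.2)
        have hrec : ∀ (w : List ℕ), (∀ j ∈ w, j < 7 + k) → ∀ v : Fin 1782,
            (((perm.comp e.symm.toMonoidHom) (lprod (el e) w) v : Fin 1782) : ℕ) = T.imgW w v := by
          intro w
          induction w with
          | nil => intro _ v; simp [lprod, Tables.imgW]
          | cons a w ihw =>
            intro hw v
            rw [lprod, map_mul, Equiv.Perm.mul_apply,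
              ih a (hw a (List.mem_cons_self ..)) (by rw [length_tbl]; have := hw a (List.mem_cons_self ..); omega),
              ihw fun j hj => hw j (List.mem_cons_of_mem _ hj)]
            rfl
        rw [el_slp e hk, hrec _ (ho k hk) u, ← he]
        rfl

end CfsgLib.SuzMult
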