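import Cfsg.Agent.Lib.SuzMult.Data
import Cfsg.Agent.Lib.SuzMult.Perm
import Cfsg.Agent.Lib.SporRecognition.CosetCert.Basic

/-!
Checks for the normaliser of the elementary group of order 243 and for the group of order 25.
-/

set_option autoImplicit false
set_option maxRecDepth 100000
set_option synthInstance.maxSize 2000

namespace CfsgLib.SuzMult

/-- Coordinates in the group of order 243. -/
abbrev V := Fin 5 → ZMod 3

/-- A vector from a list. -/
def vec (l : List (ZMod 3)) : V := fun j => l.getD j.1 0

/-- A row of a matrix. -/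
def row (M : List (List (ZMod 3))) (k : ℕ) : V := vec (M.getD k [])

/-- The linear map with the given images of the basis. -/
def mvA (M : List (List (ZMod 3))) (v : V) : V :=
  v 0 • row M 0 + v 1 • row M 1 + v 2 • row M 2 + v 3 • row M 3 + v 4 • row M 4

/-- The map of a letter. -/
def lmat (c : Fin 2) : V → V := mvA (if c = 0 then matG else matB)

/-- The map of a word. -/
def act : List (Fin 2) → V → V
  | [], v => v
  | c :: w, v => lmat c (act w v)

/-- The sum of the arguments of the involution along a word. -/
def tail : List (Fin 2) → V → V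
  | [], _ => 0
  | c :: w, v => if c = 0 then tail w v else tail w v + act w v

/-- The index of a basis element. -/
def bIdx (i : Fin 5) : ℕ := basisIdx.getD i.1 0

/-- The word of a vector. -/
def vWord (v : V) : List ℕ := (List.finRange 5).flatMap fun i => List.replicate (v i).val (bIdx i)

/-- The word in the listed elements of a word in the two generators of the normaliser. -/
def wI (w : List (Fin 2)) : List ℕ := w.map fun c => gIdx.getD c.1 0

theorem basis_ok : ((List.finRange 5).all fun i => T.sameWord [bIdx i, bIdx i, bIdx i] [] &&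
    (List.finRange 5).all fun j => T.sameWord [bIdx i, bIdx j] [bIdx j, bIdx i]) = true := by
  decide +kernel

theorem mat_ok : ((List.finRange 5).all fun i =>
    T.sameWord [gIdx.getD 0 0, bIdx i] (vWord (row matG i.1) ++ [gIdx.getD 0 0]) &&
      T.sameWord [gIdx.getD 1 0, bIdx i] (vWord (row matB i.1) ++ [gIdx.getD 1 0])) = true := by
  decide +kernel

theorem loops_rel_ok :
    (loops.all fun r => T.sameWord (wI r.1) (wI r.2.1 ++ vWord (vec r.2.2.1))) = true := by
  decide +kernel

theorem qRels_ok : (qRels.all fun r => T.sameWord (wI r.1) (wI r.2.1 ++ vWord (vec r.2.2))) = true := by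
  decide +kernel

theorem qRels_shape : qRels.map (fun r => (r.1, r.2.1)) =
    [(wX ++ wX ++ wX, []), (wY ++ wY ++ wY, []), (wX ++ wY, wY ++ wX),
      (wH ++ wX, (List.replicate coef9.1 wX).flatten ++ (List.replicate coef9.2.1 wY).flatten ++ wH),
      (wH ++ wY, (List.replicate coef9.2.2.1 wX).flatten ++ (List.replicate coef9.2.2.2 wY).flatten ++ wH)] := by
  decide +kernel

theorem det9 : (coef9.1 * coef9.2.2.2 + (3 - 1) * (coef9.2.1 * coef9.2.2.1)) % 3 ≠ 1 := by decide +kernel

/-- The basis word of a list of exponent letters. -/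
def bWord (w : List ℕ) : List ℕ := w.map fun i => basisIdx.getD i 0

theorem keys243_ok : T.keysIncr pts243 (words243.map bWord) = true := by decide +kernel

theorem words243_ok : words243.length = 243 ∧ (∀ w ∈ words243, ∀ i ∈ w, i < 5) ∧ ∀ q ∈ pts243, q < 1782 := by
  decide +kernel

theorem mat_facts : ∀ v : V, mvA matA (mvA matG v - v) = v ∧ mvA matG (mvA matA v) = mvA matA (mvA matG v) ∧
    mvA matG (mvA matA v) - mvA matA v = v := by decide +kernel

theorem loops_act : ∀ r ∈ loops, ∀ v : V, act r.1 v = act r.2.1 v := by decide +kernel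

/-- The tails of the loops. -/
def taus : List V := loops.map fun r =>
  tail r.1 (Pi.single r.2.2.2 1) - tail r.2.1 (Pi.single r.2.2.2 1)

theorem span_ok : ∀ i : Fin 5, (Pi.single i 1 : V) =
    row spanCoef i.1 0 • taus.getD 0 0 + row spanCoef i.1 1 • taus.getD 1 0 +
      row spanCoef i.1 2 • taus.getD 2 0 + row spanCoef i.1 3 • taus.getD 3 0 +
      row spanCoef i.1 4 • vec rest := by decide +kernel

theorem xy_act : (∀ v : V, act (wX ++ wX ++ wX) v = v ∧ act (wY ++ wY ++ wY) v = v) ∧
    ∀ i j : Fin 3, (∀ v : V, act ((List.replicate i.1 wX).flatten ++ (List.replicate j.1 wY).flatten) v = v) →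
      i = 0 ∧ j = 0 := by decide +kernel

/-- Pairs of coordinates. -/
abbrev P2 := Fin 5 × Fin 5

/-- The tensor of two vectors. -/
def ten (u v : V) : P2 → ZMod 3 := fun p => u p.1 * v p.2

/-- The unit tensor. -/
def dlt (p : P2) : P2 → ZMod 3 := fun q => if q = p then 1 else 0

/-- The pairs in order. -/
def pairs2 : List P2 := (List.finRange 5).flatMap fun k => (List.finRange 5).map fun l => (k, l)

/-- The vanishing combinations. -/
def vanish : List (P2 → ZMod 3) :=
  (pairs2.map fun p => dlt p - ten (row matG p.1.1) (row matG p.2.1)) ++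
    pairs2.map fun p => dlt p + dlt (p.2, p.1)

theorem tensor_ok : ∀ p : P2, ∀ q : P2, dlt p q =
    ((List.range 50).map fun k =>
      (tensorCoef.getD (5 * p.1.1 + p.2.1) []).getD k 0 * (vanish.getD k 0) q).sum := by decide +kernel

theorem five_ok : T.sameWord [idx5.getD 0 0, idx5.getD 1 0] [idx5.getD 1 0, idx5.getD 0 0] &&
    T.sameWord (List.replicate 5 (idx5.getD 0 0)) [] && T.sameWord (List.replicate 5 (idx5.getD 1 0)) [] &&
    T.sameWord [idx5.getD 2 0, idx5.getD 0 0]
      (List.replicate coef5.1 (idx5.getD 0 0) ++ List.replicate coef5.2.1 (idx5.getD 1 0) ++ [idx5.getD 2 0]) &&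
    T.sameWord [idx5.getD 2 0, idx5.getD 1 0]
      (List.replicate coef5.2.2.1 (idx5.getD 0 0) ++ List.replicate coef5.2.2.2 (idx5.getD 1 0) ++
        [idx5.getD 2 0]) = true := by decide +kernel

/-- The elements of the group of order 25 in increasing order of keys. -/
def words25 : List (List ℕ) := ord25.map fun p =>
  List.replicate (p.getD 0 0) (idx5.getD 0 0) ++ List.replicate (p.getD 1 0) (idx5.getD 1 0)

theorem keys25_ok : T.keysIncr pts25 words25 = true ∧ words25.length = 25 ∧
    (∀ w ∈ words25, ∀ i ∈ w, i = idx5.getD 0 0 ∨ i = idx5.getD 1 0) ∧ ∀ q ∈ pts25, q < 1782 := by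
  decide +kernel

theorem det5 : (coef5.1 * coef5.2.2.2 + (5 - 1) * (coef5.2.1 * coef5.2.2.1)) % 5 ≠ 1 := by decide +kernel

theorem idx_lt : (∀ i : Fin 5, bIdx i < T.ts.length) := by decide +kernel

end CfsgLib.SuzMult
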