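import Cfsg.Agent.Lib.SuzMult.ThreeChecks

/-!
The subgroup of order 243 of the sporadic Suzuki group and the two generators of its normaliser.
-/

set_option autoImplicit false
set_option maxRecDepth 100000
set_option synthInstance.maxSize 2000

namespace CfsgLib.SuzMult

open CfsgLib.SchurMult CfsgLib.SchurMult.PermCert

universe v

variable {G : Type v} [Group G] (e : Cfsg.Spor.Suz ≃* G)

/-- A basis element. -/
noncomputable def bE (i : Fin 5) : G := el e (bIdx i)

/-- The element of a vector. -/
noncomputable def ev (v : V) : G := ((List.finRange 5).map fun i => bE e i ^ (v i).val).prod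

/-- The generators of the normaliser. -/
noncomputable def nG (c : Fin 2) : G := el e (gIdx.getD c.1 0)

theorem lprod_replicate (f : ℕ → G) (n i : ℕ) : lprod f (List.replicate n i) = f i ^ n := by
  induction n with
  | zero => simp [lprod]
  | succ n ih => rw [List.replicate_succ, lprod, ih, pow_succ']

theorem lprod_vWord (v : V) : lprod (el e) (vWord v) = ev e v := by
  unfold vWord ev
  generalize List.finRange 5 = l
  induction l with
  | nil => simp [lprod]
  | cons i l ih =>
    rw [List.flatMap_cons, lprod_append, lprod_replicate, ih, List.map_cons, List.prod_cons]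
    rfl

theorem lprod_wI (w : List (Fin 2)) : lprod (el e) (wI w) = (w.map (nG e)).prod := by
  induction w with
  | nil => simp [lprod, wI]
  | cons c w ih =>
    rw [List.map_cons, List.prod_cons, ← ih]
    simp [wI, lprod, nG]

theorem bE_cube (i : Fin 5) : bE e i ^ 3 = 1 := by
  have h := basis_ok
  simp only [List.all_eq_true, Bool.and_eq_true] at h
  have := (realises e).eq_of_sameWord (h i (List.mem_finRange i)).1
  simpa [lprod, bE, pow_succ, mul_assoc] using this

theorem bE_comm (i j : Fin 5) : Commute (bE e i) (bE e j) := by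
  have h := basis_ok
  simp only [List.all_eq_true, Bool.and_eq_true] at h
  have := (realises e).eq_of_sameWord ((h i (List.mem_finRange i)).2 j (List.mem_finRange j))
  show bE e i * bE e j = bE e j * bE e i
  simpa [lprod, bE] using this

theorem bE_pow_add (i : Fin 5) (a b : ZMod 3) : bE e i ^ (a + b).val = bE e i ^ a.val * bE e i ^ b.val := by
  rw [← pow_add, ZMod.val_add, ← pow_eq_pow_mod _ (bE_cube e i)]

theorem ev_add (u w : V) : ev e (u + w) = ev e u * ev e w := by
  unfold ev
  generalize List.finRange 5 = l
  induction l with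
  | nil => simp
  | cons i l ih =>
    simp only [List.map_cons, List.prod_cons]
    rw [ih, Pi.add_apply, bE_pow_add]
    have hc : Commute (bE e i ^ (w i).val) (l.map fun j => bE e j ^ (u j).val).prod :=
      Commute.list_prod_right _ _ fun y hy => by
        obtain ⟨j, -, rfl⟩ := List.mem_map.1 hy
        exact (bE_comm e i j).pow_pow _ _
    rw [mul_assoc, ← mul_assoc (bE e i ^ (w i).val), hc.eq]
    simp only [mul_assoc]

theorem ev_zero : ev e 0 = 1 := by
  have := ev_add e 0 0
  rw [add_zero] at this
  exact left_eq_mul.1 this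

theorem ev_single (i : Fin 5) : ev e (Pi.single i 1) = bE e i := by
  fin_cases i <;> simp [ev, List.finRange_succ, Pi.single_apply, ZMod.val_one]

theorem ev_comm (u w : V) : Commute (ev e u) (ev e w) := by
  show ev e u * ev e w = ev e w * ev e u
  rw [← ev_add, ← ev_add, add_comm]

theorem ev_cube (u : V) : ev e u ^ 3 = 1 := by
  have h3 : u + u + u = 0 := funext fun i => by
    show u i + u i + u i = 0
    generalize u i = a
    revert a; decide
  rw [pow_succ, pow_two, ← ev_add, ← ev_add, h3, ev_zero]

/-- The subgroup of order 243. -/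
noncomputable def E243 : Subgroup G where
  carrier := Set.range (ev e)
  one_mem' := ⟨0, ev_zero e⟩
  mul_mem' := by rintro _ _ ⟨u, rfl⟩ ⟨w, rfl⟩; exact ⟨u + w, ev_add e u w⟩
  inv_mem' := by
    rintro _ ⟨u, rfl⟩
    exact ⟨-u, eq_inv_of_mul_eq_one_left (by rw [← ev_add, neg_add_cancel, ev_zero])⟩

theorem lprod_bWord_mem : ∀ w : List ℕ, (∀ i ∈ w, i < 5) → lprod (el e) (bWord w) ∈ E243 e
  | [], _ => one_mem _
  | i :: w, h => by
    show lprod (el e) (basisIdx.getD i 0 :: bWord w) ∈ E243 e
    rw [lprod]
    refine mul_mem ?_ (lprod_bWord_mem w fun j hj => h j (List.mem_cons_of_mem _ hj))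
    have hi := h i (List.mem_cons_self ..)
    exact ⟨Pi.single ⟨i, hi⟩ 1, ev_single e _⟩

theorem ev_injective [Finite G] : Function.Injective (ev e) := by
  obtain ⟨hlen, hlt, hpts⟩ := words243_ok
  have h := (realises e).length_le_card (pts := pts243) hpts keys243_ok (E243 e) (fun w hw => by
    obtain ⟨x, hx, rfl⟩ := List.mem_map.1 hw
    exact lprod_bWord_mem e x (hlt x hx))
  rw [List.length_map, hlen] at h
  let f : V → E243 e := fun v => ⟨ev e v, v, rfl⟩
  have hs : Function.Surjective f := by rintro ⟨_, v, rfl⟩; exact ⟨v, rfl⟩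
  have hc : Nat.card V = 243 := by simp [Nat.card_eq_fintype_card]
  have hb : Function.Bijective f :=
    (Nat.bijective_iff_surjective_and_card f).2 ⟨hs, le_antisymm (hc ▸ h) (Nat.card_le_card_of_surjective f hs)⟩
  intro u w huw
  exact hb.1 (Subtype.ext huw)

/-- The image of a vector under a letter. -/
theorem nG_ev (c : Fin 2) (v : V) : nG e c * ev e v = ev e (lmat c v) * nG e c := by
  have hb : ∀ i : Fin 5, nG e c * bE e i = ev e (row (if c = 0 then matG else matB) i.1) * nG e c := by
    intro i
    have h := mat_ok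
    simp only [List.all_eq_true, Bool.and_eq_true] at h
    obtain ⟨h0, h1⟩ := h i (List.mem_finRange i)
    fin_cases c
    · simpa [lprod, lprod_append, lprod_vWord, bE, nG] using (realises e).eq_of_sameWord h0
    · simpa [lprod, lprod_append, lprod_vWord, bE, nG] using (realises e).eq_of_sameWord h1
  have hadd : ∀ u w : V, lmat c (u + w) = lmat c u + lmat c w := fun u w => by
    simp only [lmat, mvA, Pi.add_apply, add_smul]; abel
  let S : AddSubgroup V :=
    { carrier := {v | nG e c * ev e v = ev e (lmat c v) * nG e c}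
      zero_mem' := by
        have hz : lmat c 0 = 0 := by simp [lmat, mvA]
        simp [hz, ev_zero]
      add_mem' := fun {u w} hu hw => by
        simp only [Set.mem_setOf_eq] at hu hw ⊢
        rw [ev_add, ← mul_assoc, hu, mul_assoc, hw, ← mul_assoc, ← ev_add, ← hadd]
      neg_mem' := fun {u} hu => by
        simp only [Set.mem_setOf_eq] at hu ⊢
        have h0 : lmat c (-u) + lmat c u = 0 := by rw [← hadd]; simp [lmat, mvA]
        have hi : ∀ w : V, ev e (-w) = (ev e w)⁻¹ := fun w =>
          eq_inv_of_mul_eq_one_left (by rw [← ev_add, neg_add_cancel, ev_zero])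
        rw [hi, show lmat c (-u) = -(lmat c u) from eq_neg_of_add_eq_zero_left h0, hi,
          mul_inv_eq_iff_eq_mul, mul_assoc, hu, inv_mul_cancel_left] }
  have hone : ∀ i : Fin 5, (Pi.single i 1 : V) ∈ S := by
    intro i
    show nG e c * ev e (Pi.single i 1) = ev e (lmat c (Pi.single i 1)) * nG e c
    rw [ev_single, hb]
    congr 2
    fin_cases i <;> simp [lmat, mvA, Pi.single_apply]
  have hv : v ∈ S := by
    have hd : v = ∑ i : Fin 5, (v i).val • (Pi.single i 1 : V) := by
      refine funext fun j => ?_
      rw [Finset.sum_apply, Finset.sum_eq_single j]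
      · rw [Pi.smul_apply, Pi.single_eq_same, nsmul_one]
        exact (ZMod.natCast_rightInverse _).symm
      · intro b _ hbj
        rw [Pi.smul_apply, Pi.single_eq_of_ne hbj.symm, smul_zero]
      · simp
    rw [hd]
    exact AddSubgroup.sum_mem _ fun i _ => AddSubgroup.nsmul_mem _ (hone i) _
  exact hv

theorem nG_prod_ev : ∀ (w : List (Fin 2)) (v : V),
    (w.map (nG e)).prod * ev e v = ev e (act w v) * (w.map (nG e)).prod
  | [], v => by simp [act]
  | c :: w, v => by
    rw [List.map_cons, List.prod_cons, mul_assoc, nG_prod_ev w, ← mul_assoc, nG_ev, mul_assoc]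
    rfl

theorem loops_rel {r : List (Fin 2) × List (Fin 2) × List (ZMod 3) × Fin 5} (hr : r ∈ loops) :
    (r.1.map (nG e)).prod = (r.2.1.map (nG e)).prod * ev e (vec r.2.2.1) := by
  have h := loops_rel_ok
  simp only [List.all_eq_true] at h
  simpa [lprod_append, lprod_vWord, lprod_wI] using (realises e).eq_of_sameWord (h r hr)

theorem qRels_rel {a b : List (Fin 2)} (h : (a, b) ∈ qRels.map fun r => (r.1, r.2.1)) :
    ∃ u : V, (a.map (nG e)).prod = (b.map (nG e)).prod * ev e u := by
  obtain ⟨r, hr, he⟩ := List.mem_map.1 h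
  simp only [Prod.mk.injEq] at he
  obtain ⟨rfl, rfl⟩ := he
  have hq := qRels_ok
  simp only [List.all_eq_true] at hq
  exact ⟨vec r.2.2, by simpa [lprod_append, lprod_vWord, lprod_wI] using (realises e).eq_of_sameWord (hq r hr)⟩

end CfsgLib.SuzMult
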