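import Cfsg.Agent.Lib.SuzMult.ThreeGroup
import Cfsg.Agent.Lib.SchurMult.CentralComm
import Mathlib.Algebra.Module.ZMod

/-!
The preimage of the subgroup of order 243 in a central extension is abelian.
-/

set_option autoImplicit false
set_option maxRecDepth 100000
set_option synthInstance.maxSize 2000

namespace CfsgLib.SuzMult

open CfsgLib.SchurMult
open scoped commutatorElement

universe u v

variable {Γ : Type u} [Group Γ] {G : Type v} [Group G] (e : Cfsg.Spor.Suz ≃* G) {σ : Γ →* G}
variable (hc : σ.ker ≤ Subgroup.center Γ) (hs : Function.Surjective σ)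

/-- A lift of the element of a vector. -/
noncomputable def lev (v : V) : Γ := (hs (ev e v)).choose

theorem map_lev (v : V) : σ (lev e hs v) = ev e v := (hs (ev e v)).choose_spec

theorem lev_comm (u w : V) : Commute (σ (lev e hs u)) (σ (lev e hs w)) := by
  rw [map_lev, map_lev]; exact ev_comm e u w

/-- The subgroup of central elements of exponent three. -/
def C3sub (Γ : Type u) [Group Γ] : Subgroup Γ where
  carrier := {z | z ∈ Subgroup.center Γ ∧ z ^ 3 = 1}
  one_mem' := ⟨one_mem _, one_pow 3⟩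
  mul_mem' := by
    rintro a b ⟨ha, ha3⟩ ⟨hb, hb3⟩
    refine ⟨mul_mem ha hb, ?_⟩
    rw [Commute.mul_pow (show Commute a b from Subgroup.mem_center_iff.1 hb a), ha3, hb3, one_mul]
  inv_mem' := by
    rintro a ⟨ha, ha3⟩
    exact ⟨inv_mem ha, by rw [inv_pow, ha3, inv_one]⟩

/-- Central elements of exponent three. -/
abbrev C3 (Γ : Type u) [Group Γ] : Type u := ↥(C3sub Γ)

instance commGroupC3 : CommGroup (C3 Γ) :=
  { (inferInstance : Group (C3 Γ)) with
    mul_comm := fun a b => Subtype.ext (Subgroup.mem_center_iff.1 b.2.1 a.1) }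

instance moduleC3 : Module (ZMod 3) (Additive (C3 Γ)) :=
  AddCommGroup.zmodModule fun x => by
    apply Additive.toMul.injective
    exact Subtype.ext x.toMul.2.2

include hc

theorem pairVal_mem (u w : V) : ⁅lev e hs u, lev e hs w⁆ ∈ C3sub Γ := by
  refine ⟨hc (comm_mem_ker (lev_comm e hs u w)), ?_⟩
  rw [← comm_pow_left hc (lev_comm e hs u w),
    comm_eq_of_map_eq hc (a' := 1) (b' := lev e hs w) (by rw [map_pow, map_lev, ev_cube, map_one]) rfl,
    commutatorElement_one_left]

/-- The commutator of lifts. -/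
noncomputable def pairVal (u w : V) : Additive (C3 Γ) :=
  Additive.ofMul ⟨_, pairVal_mem e hc hs u w⟩

omit hc in
theorem pairVal_ext {hc : σ.ker ≤ Subgroup.center Γ} {a : Additive (C3 Γ)} {u w : V}
    (h : (a.toMul : Γ) = ⁅lev e hs u, lev e hs w⁆) : a = pairVal e hc hs u w :=
  Additive.toMul.injective (Subtype.ext h)

theorem pairVal_add_left (u u' w : V) :
    pairVal e hc hs (u + u') w = pairVal e hc hs u w + pairVal e hc hs u' w := by
  refine (pairVal_ext e hs ?_).symm
  show ⁅lev e hs u, lev e hs w⁆ * ⁅lev e hs u', lev e hs w⁆ = _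
  rw [← comm_mul_left hc (lev_comm e hs u' w)]
  exact comm_eq_of_map_eq hc (by rw [map_mul, map_lev, map_lev, map_lev, ev_add]) rfl

theorem pairVal_add_right (u w w' : V) :
    pairVal e hc hs u (w + w') = pairVal e hc hs u w + pairVal e hc hs u w' := by
  refine (pairVal_ext e hs ?_).symm
  show ⁅lev e hs u, lev e hs w⁆ * ⁅lev e hs u, lev e hs w'⁆ = _
  rw [← comm_mul_right hc (lev_comm e hs u w')]
  exact comm_eq_of_map_eq hc rfl (by rw [map_mul, map_lev, map_lev, map_lev, ev_add])

theorem pairVal_antisymm (u w : V) : pairVal e hc hs u w + pairVal e hc hs w u = 0 := by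
  refine Additive.toMul.injective (Subtype.ext ?_)
  show ⁅lev e hs u, lev e hs w⁆ * ⁅lev e hs w, lev e hs u⁆ = 1
  rw [← commutatorElement_inv (lev e hs u) (lev e hs w), mul_inv_cancel]

theorem pairVal_invariant (u w : V) :
    pairVal e hc hs (lmat 0 u) (lmat 0 w) = pairVal e hc hs u w := by
  refine pairVal_ext e hs ?_
  show ⁅lev e hs (lmat 0 u), lev e hs (lmat 0 w)⁆ = _
  obtain ⟨g, hg⟩ := hs (nG e 0)
  rw [← comm_conj hc (lev_comm e hs u w) g]
  refine comm_eq_of_map_eq hc ?_ ?_
  all_goals
    rw [map_mul, map_mul, map_inv, hg, map_lev, map_lev, nG_ev, mul_inv_cancel_right]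

/-- The commutator form as a linear map on tensors. -/
noncomputable def psi : (P2 → ZMod 3) →ₗ[ZMod 3] Additive (C3 Γ) :=
  ∑ p : P2, (LinearMap.toSpanSingleton (ZMod 3) (Additive (C3 Γ))
    (pairVal e hc hs (Pi.single p.1 1) (Pi.single p.2 1))).comp (LinearMap.proj p)

theorem psi_apply (t : P2 → ZMod 3) :
    psi e hc hs t = ∑ p : P2, t p • pairVal e hc hs (Pi.single p.1 1) (Pi.single p.2 1) := by
  simp [psi]

omit hc in
theorem eq_sum_single (u : V) : u = ∑ i : Fin 5, u i • (Pi.single i 1 : V) := by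
  refine funext fun j => ?_
  rw [Finset.sum_apply, Finset.sum_eq_single j]
  · rw [Pi.smul_apply, Pi.single_eq_same, smul_eq_mul, mul_one]
  · intro b _ hbj
    rw [Pi.smul_apply, Pi.single_eq_of_ne hbj.symm, smul_zero]
  · simp

theorem psi_ten (u w : V) : psi e hc hs (ten u w) = pairVal e hc hs u w := by
  let L : V → V →+ Additive (C3 Γ) := fun x =>
    AddMonoidHom.mk' (fun y => pairVal e hc hs x y) (pairVal_add_right e hc hs x)
  let R : V → V →+ Additive (C3 Γ) := fun y =>
    AddMonoidHom.mk' (fun x => pairVal e hc hs x y) fun a b => pairVal_add_left e hc hs a b y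
  have h1 : pairVal e hc hs u w =
      ∑ i : Fin 5, u i • pairVal e hc hs (Pi.single i 1) w := by
    conv_lhs => rw [eq_sum_single u]
    show R w (∑ i : Fin 5, u i • (Pi.single i 1 : V)) = _
    rw [map_sum]
    exact Finset.sum_congr rfl fun i _ => ZMod.map_smul (R w) _ _
  have h2 : ∀ i : Fin 5, pairVal e hc hs (Pi.single i 1) w =
      ∑ j : Fin 5, w j • pairVal e hc hs (Pi.single i 1) (Pi.single j 1) := by
    intro i
    conv_lhs => rw [eq_sum_single w]
    show L (Pi.single i 1) (∑ j : Fin 5, w j • (Pi.single j 1 : V)) = _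
    rw [map_sum]
    exact Finset.sum_congr rfl fun j _ => ZMod.map_smul (L _) _ _
  rw [psi_apply, h1, Fintype.sum_prod_type]
  refine Finset.sum_congr rfl fun i _ => ?_
  rw [h2, Finset.smul_sum]
  exact Finset.sum_congr rfl fun j _ => by rw [ten, smul_smul]

theorem psi_dlt (p : P2) : psi e hc hs (dlt p) = pairVal e hc hs (Pi.single p.1 1) (Pi.single p.2 1) := by
  simp [psi_apply, dlt]

theorem psi_vanish {t : P2 → ZMod 3} (ht : t ∈ vanish) : psi e hc hs t = 0 := by
  simp only [vanish, List.mem_append, List.mem_map] at ht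
  rcases ht with ⟨p, -, rfl⟩ | ⟨p, -, rfl⟩
  · have hrow : ∀ k : Fin 5, row matG k.1 = lmat 0 (Pi.single k 1) := fun k => by
      fin_cases k <;> simp [lmat, mvA, Pi.single_apply]
    rw [map_sub, psi_dlt, psi_ten, hrow, hrow, pairVal_invariant, sub_self]
  · rw [map_add, psi_dlt, psi_dlt, pairVal_antisymm]

theorem pairVal_eq_zero (u w : V) : pairVal e hc hs u w = 0 := by
  have h0 : ∀ p : P2, psi e hc hs (dlt p) = 0 := by
    intro p
    have e1 : dlt p = ((List.range 50).map fun k =>
        (tensorCoef.getD (5 * p.1.1 + p.2.1) []).getD k 0 • vanish.getD k 0).sum := by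
      refine funext fun q => ?_
      rw [tensor_ok p q, Pi.list_sum_apply, List.map_map]
      rfl
    rw [e1, map_list_sum]
    refine List.sum_eq_zero fun x hx => ?_
    obtain ⟨y, hy, rfl⟩ := List.mem_map.1 hx
    obtain ⟨k, hk, rfl⟩ := List.mem_map.1 hy
    have hlen : vanish.length = 50 := by decide +kernel
    rw [map_smul, psi_vanish e hc hs (by
      rw [List.mem_range, ← hlen] at hk
      rw [List.getD_eq_getElem _ _ hk]; exact List.getElem_mem hk), smul_zero]
  rw [← psi_ten e hc hs, psi_apply]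
  exact Finset.sum_eq_zero fun p _ => by rw [← psi_dlt e hc hs p, h0, smul_zero]

include hs in
/-- Lifts of elements of the group of order 243 commute. -/
theorem commute_of_map_mem {x y : Γ} (hx : σ x ∈ E243 e) (hy : σ y ∈ E243 e) : Commute x y := by
  obtain ⟨u, hu⟩ := hx
  obtain ⟨w, hw⟩ := hy
  have h := congrArg (fun a : Additive (C3 Γ) => (a.toMul : Γ))
    (pairVal_eq_zero e hc hs u w)
  change ⁅lev e hs u, lev e hs w⁆ = 1 at h
  rw [← comm_eq_of_map_eq hc (a := x) (b := y) (by rw [map_lev, hu]) (by rw [map_lev, hw])] at h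
  exact commutatorElement_eq_one_iff_mul_comm.1 h

end CfsgLib.SuzMult
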