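import Cfsg.Agent.Lib.SuzMult.TwoLift
import Cfsg.Agent.Lib.SchurMult.CentralComm

/-!
The prime two: the kernel elements in the commutator subgroup of the preimage of the involution
centraliser lie in a subgroup of order at most two.
-/

set_option autoImplicit false
set_option maxRecDepth 100000
set_option synthInstance.maxSize 2000

namespace CfsgLib.SuzMult.Two

open Cfsg CfsgLib.SuzCo0 CfsgLib.SuzCo0.Cent CfsgLib.SuzukiType CfsgLib.ClassicalForms
open scoped commutatorElement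

variable {Γ : Type} [Group Γ] {σ : Γ →* Sx}
variable (hc : σ.ker ≤ Subgroup.center Γ) (hs : Function.Surjective σ)
variable {π : H →* P4} (hπs : Function.Surjective π) (hπk : π.ker = QH)

/-- The lift of a normal form. -/
noncomputable def lX (v : V) : Γ := lf hs (X v)

theorem lX_mem (v : V) : lX hs v ∈ tQ σ := by
  show σ _ ∈ Q
  rw [lX, map_lf]; exact X_mem_Q v

theorem theta_lX (v : V) : theta (σ (lX hs v)) = v := by rw [lX, map_lf, theta_X']

theorem tA_of_theta {x : Γ} (hx : x ∈ tQ σ) (h : theta (σ x) = 0) : x ∈ tA σ :=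
  mem_tA_iff.2 (theta_eq_zero hx h)

theorem exists_tA {x y : Γ} (hx : x ∈ tQ σ) (hy : y ∈ tQ σ) (h : theta (σ x) = theta (σ y)) :
    ∃ a ∈ tA σ, x = y * a := by
  refine ⟨y⁻¹ * x, tA_of_theta (mul_mem (inv_mem hy) hx) ?_, by rw [mul_inv_cancel_left]⟩
  have h1 := theta_mul (x := σ y⁻¹) (y := σ x) (show σ y⁻¹ ∈ Q from inv_mem hy) hx
  have h2 := theta_mul (x := σ y⁻¹) (y := σ y) (show σ y⁻¹ ∈ Q from inv_mem hy) hy
  rw [map_mul, h1, h, ← h2, ← map_mul, inv_mul_cancel, map_one]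
  simpa [zb] using theta_zb false

/-- The commutator of two lifts. -/
noncomputable def c0 : Γ := ⁅lX hs eV, lX hs fV⁆

theorem comm_mem_tA {x y : Γ} (hx : x ∈ tQ σ) (hy : y ∈ tQ σ) : ⁅x, y⁆ ∈ tA σ := by
  have hm : ⁅x, y⁆ ∈ tQ σ := by
    rw [commutatorElement_def]
    exact mul_mem (mul_mem (mul_mem hx hy) (inv_mem hx)) (inv_mem hy)
  refine tA_of_theta hm ?_
  rw [map_commutatorElement, commutatorElement_def,
    theta_mul (mul_mem (mul_mem hx hy) (inv_mem hx)) (inv_mem hy),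
    theta_mul (mul_mem hx hy) (inv_mem hx), theta_mul hx hy]
  have hi : ∀ {g : Sx}, g ∈ Q → theta g⁻¹ = theta g := fun {g} hg => by
    have h := theta_mul hg (inv_mem hg)
    rw [mul_inv_cancel, show theta 1 = 0 by simpa [zb] using theta_zb false] at h
    exact (vadd_eq_zero.1 h.symm).symm
  rw [hi hx, hi hy, add_comm (theta (σ x)) (theta (σ y)), add_assoc (theta (σ y)), vadd_self, add_zero,
    vadd_self]

include hc hs hπs hπk

theorem tA_central {a h : Γ} (ha : a ∈ tA σ) (hh : h ∈ tH σ) : a * h = h * a :=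
  tA_comm hc hs hπs hπk ha hh

theorem tQ_conj_tA {a : Γ} (ha : a ∈ tA σ) {x : Γ} (hx : x ∈ tQ σ) : x * a * x⁻¹ = a := by
  rw [← tA_central hc hs hπs hπk ha (tQ_le_tH σ hx), mul_inv_cancel_right]

theorem comm_tA_left {x a y : Γ} (hx : x ∈ tH σ) (ha : a ∈ tA σ) (hy : y ∈ tH σ) :
    ⁅x * a, y⁆ = ⁅x, y⁆ := by
  have h := tA_central hc hs hπs hπk ha hy
  calc ⁅x * a, y⁆ = x * (a * y) * a⁻¹ * x⁻¹ * y⁻¹ := by simp only [commutatorElement_def]; group
    _ = x * (y * a) * a⁻¹ * x⁻¹ * y⁻¹ := by rw [h]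
    _ = ⁅x, y⁆ := by simp only [commutatorElement_def]; group

theorem comm_tA_right {x a y : Γ} (hx : x ∈ tH σ) (ha : a ∈ tA σ) (hy : y ∈ tH σ) :
    ⁅y, x * a⁆ = ⁅y, x⁆ := by
  rw [← commutatorElement_inv (x * a) y, comm_tA_left hc hs hπs hπk hx ha hy, commutatorElement_inv]

theorem comm_mul_left' {x x' y : Γ} (hx : x ∈ tQ σ) (hx' : x' ∈ tQ σ) (hy : y ∈ tQ σ) :
    ⁅x * x', y⁆ = ⁅x, y⁆ * ⁅x', y⁆ := by
  have h : ⁅x * x', y⁆ = x * ⁅x', y⁆ * x⁻¹ * ⁅x, y⁆ := by simp only [commutatorElement_def]; group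
  rw [h, tQ_conj_tA hc hs hπs hπk (comm_mem_tA hx' hy) hx,
    tA_central hc hs hπs hπk (comm_mem_tA hx' hy) (tQ_le_tH σ (show ⁅x, y⁆ ∈ tQ σ by
      rw [commutatorElement_def]
      exact mul_mem (mul_mem (mul_mem hx hy) (inv_mem hx)) (inv_mem hy)))]

theorem comm_eq_lX {x y : Γ} (hx : x ∈ tQ σ) (hy : y ∈ tQ σ) :
    ⁅x, y⁆ = ⁅lX hs (theta (σ x)), lX hs (theta (σ y))⁆ := by
  obtain ⟨a, ha, ea⟩ := exists_tA hx (lX_mem hs (theta (σ x))) (theta_lX hs _).symm
  obtain ⟨b, hb, eb⟩ := exists_tA hy (lX_mem hs (theta (σ y))) (theta_lX hs _).symm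
  have hyb : lX hs (theta (σ y)) * b ∈ tH σ := by rw [← eb]; exact tQ_le_tH σ hy
  conv_lhs => rw [ea, eb]
  rw [comm_tA_left hc hs hπs hπk (tQ_le_tH σ (lX_mem hs _)) ha hyb,
    comm_tA_right hc hs hπs hπk (tQ_le_tH σ (lX_mem hs _)) hb (tQ_le_tH σ (lX_mem hs _))]

theorem form_add_right (u v w : V) :
    ⁅lX hs u, lX hs (v + w)⁆ = ⁅lX hs u, lX hs v⁆ * ⁅lX hs u, lX hs w⁆ := by
  have hm := mul_mem (lX_mem hs v) (lX_mem hs w)
  have h1 := comm_eq_lX hc hs hπs hπk hm (lX_mem hs u)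
  rw [map_mul, theta_mul (lX_mem hs v) (lX_mem hs w), theta_lX, theta_lX, theta_lX,
    comm_mul_left' hc hs hπs hπk (lX_mem hs v) (lX_mem hs w) (lX_mem hs u)] at h1
  rw [← commutatorElement_inv (lX hs (v + w)) (lX hs u), ← h1, mul_inv_rev, commutatorElement_inv,
    commutatorElement_inv]
  exact tA_central hc hs hπs hπk (comm_mem_tA (lX_mem hs u) (lX_mem hs w))
    (tQ_le_tH σ (by
      rw [commutatorElement_def]
      exact mul_mem (mul_mem (mul_mem (lX_mem hs u) (lX_mem hs v)) (inv_mem (lX_mem hs u)))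
        (inv_mem (lX_mem hs v))))

theorem form_zero (u : V) : ⁅lX hs u, lX hs 0⁆ = 1 := by
  have h := form_add_right hc hs hπs hπk u 0 0
  rw [add_zero] at h
  exact left_eq_mul.1 h

theorem form_invariant {c : Sx} (hc' : c ∈ H) (u v : V) :
    ⁅lX hs (act c u), lX hs (act c v)⁆ = ⁅lX hs u, lX hs v⁆ := by
  have hcl : lf hs c ∈ tH σ := by show σ _ ∈ H; rw [map_lf]; exact hc'
  have h := comm_eq_lX hc hs hπs hπk (conj_tQ hcl (lX_mem hs u)) (conj_tQ hcl (lX_mem hs v))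
  have ht : ∀ w, theta (σ (lf hs c * lX hs w * (lf hs c)⁻¹)) = act c w := fun w => by
    rw [map_mul, map_mul, map_inv, map_lf, lX, map_lf]; rfl
  rw [ht, ht, ← conjugate_commutatorElement,
    ← tA_central hc hs hπs hπk (comm_mem_tA (lX_mem hs u) (lX_mem hs v)) hcl, mul_inv_cancel_right] at h
  exact h.symm

theorem c0_sq : c0 hs * c0 hs = 1 := by
  rw [c0, ← form_add_right hc hs hπs hπk, vadd_self, form_zero hc hs hπs hπk]

theorem form_mem (u v : V) : ⁅lX hs u, lX hs v⁆ ∈ Subgroup.zpowers (c0 hs) := by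
  have hrow : ∀ v, ⁅lX hs eV, lX hs v⁆ ∈ Subgroup.zpowers (c0 hs) := by
    intro v
    let D : AddSubgroup V :=
      { carrier := {v | ⁅lX hs eV, lX hs v⁆ ∈ Subgroup.zpowers (c0 hs)}
        zero_mem' := by
          show ⁅lX hs eV, lX hs 0⁆ ∈ Subgroup.zpowers (c0 hs)
          rw [form_zero hc hs hπs hπk]; exact one_mem _
        add_mem' := fun {a b} ha hb => by
          show ⁅lX hs eV, lX hs (a + b)⁆ ∈ Subgroup.zpowers (c0 hs)
          rw [form_add_right hc hs hπs hπk]; exact mul_mem ha hb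
        neg_mem' := fun {a} ha => by rw [vneg]; exact ha }
    have htr : ∀ a < (transv 1).length, ((transv 1).getD a (0, [])).1 ∈ D := by
      intro a ha
      rw [List.getD_eq_getElem _ _ ha]
      have h := transv_ok
      simp only [List.all_eq_true, List.mem_range, Bool.and_eq_true, decide_eq_true_eq] at h
      obtain ⟨h1, h2⟩ := (h 1 (by norm_num)).2 _ (List.getElem_mem ha)
      have h0 := h2 0 (by norm_num)
      rw [bI_ef.2.2.1] at h0
      rw [bI_ef.2.2.2] at h1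
      show ⁅lX hs eV, lX hs _⁆ ∈ Subgroup.zpowers (c0 hs)
      rw [← h1]
      conv => arg 2; arg 1; rw [← h0]
      rw [← act_gW, ← act_gW, form_invariant hc hs hπs hπk (gW_mem_H _)]
      exact Subgroup.mem_zpowers _
    show v ∈ D
    rw [← xiIdx_sum v]
    refine list_sum_mem fun y hy => ?_
    obtain ⟨i, -, rfl⟩ := List.mem_map.1 hy
    obtain ⟨hlt, hsum⟩ := span_fV i
    rw [hsum]
    refine list_sum_mem fun y hy => ?_
    obtain ⟨a, ha, rfl⟩ := List.mem_map.1 hy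
    exact htr a (hlt a ha)
  let W : AddSubgroup V :=
    { carrier := {u | ∀ v, ⁅lX hs u, lX hs v⁆ ∈ Subgroup.zpowers (c0 hs)}
      zero_mem' := fun v => by
        rw [← commutatorElement_inv, form_zero hc hs hπs hπk, inv_one]; exact one_mem _
      add_mem' := fun {a b} ha hb v => by
        rw [← commutatorElement_inv, form_add_right hc hs hπs hπk, mul_inv_rev, commutatorElement_inv,
          commutatorElement_inv]
        exact mul_mem (hb v) (ha v)
      neg_mem' := fun {a} ha => by rw [vneg]; exact ha }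
  have hW : ∀ (k : Fin 2) (x : V), x ∈ W → colMap k x ∈ W := by
    intro k x hx y
    have hm : el (hm k) ∈ H := (hm_mem_Nz k).1
    have hy : act (el (Cent.hm k)) (act (el (Cent.hm k))⁻¹ y) = y := by
      rw [← act_mul (hm_mem_Nz k) (inv_mem (hm_mem_Nz k)), mul_inv_cancel, act_one]
    rw [← act_hm k x, ← hy, form_invariant hc hs hπs hπk hm]
    exact hx _
  exact eq_zero_or_all hW (v := eV) hrow (by decide) u v

theorem comm_tQ_mem {x y : Γ} (hx : x ∈ tQ σ) (hy : y ∈ tQ σ) : ⁅x, y⁆ ∈ Subgroup.zpowers (c0 hs) := by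
  rw [comm_eq_lX hc hs hπs hπk hx hy]; exact form_mem hc hs hπs hπk _ _

omit hc hπs hπk in
theorem map_c0 : σ (c0 hs) = zS := by
  have h : σ (c0 hs) = 1 ∨ σ (c0 hs) = zS := mem_tA_iff.1 (comm_mem_tA (lX_mem hs eV) (lX_mem hs fV))
  refine h.resolve_left fun h1 => ?_
  rw [c0, map_commutatorElement, lX, lX, map_lf, map_lf, commutatorElement_eq_one_iff_mul_comm] at h1
  refine wp_ne noncomm_ok ?_
  have e0 : X eV = el (em 0) := by rw [← bI_ef.1, X_bI]
  have e1 : X fV = el (em 1) := by rw [← bI_ef.2.1, X_bI]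
  rw [e0, e1] at h1
  simpa [wp, Cent.em] using h1

theorem zpowers_c0_ker {y : Γ} (hy : y ∈ Subgroup.zpowers (c0 hs)) (hk : y ∈ σ.ker) : y = 1 := by
  obtain ⟨i, rfl⟩ := Subgroup.mem_zpowers_iff.1 hy
  rcases Int.even_or_odd i with ⟨j, rfl⟩ | ⟨j, rfl⟩
  · rw [zpow_add, ← (Commute.refl (c0 hs)).mul_zpow, c0_sq hc hs hπs hπk, one_zpow]
  · exfalso
    rw [MonoidHom.mem_ker, map_zpow, map_c0 hs, zpow_add, zpow_one, zpow_mul, zpow_two, zS_mul_zS,
      one_zpow, one_mul] at hk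
    exact zS_ne_one hk

theorem tA_split {a : Γ} (ha : a ∈ tA σ) :
    ∃ k ∈ σ.ker, ∃ d ∈ Subgroup.zpowers (c0 hs), a = k * d := by
  rcases mem_tA_iff.1 ha with h | h
  · exact ⟨a, h, 1, one_mem _, (mul_one a).symm⟩
  · exact ⟨a * (c0 hs)⁻¹, by rw [MonoidHom.mem_ker, map_mul, map_inv, h, map_c0 hs, mul_inv_cancel],
      c0 hs, Subgroup.mem_zpowers _, by rw [inv_mul_cancel_right]⟩

omit hπs hπk hc in
theorem zpowers_c0_le_tA : Subgroup.zpowers (c0 hs) ≤ tA σ :=
  Subgroup.zpowers_le.2 (comm_mem_tA (lX_mem hs eV) (lX_mem hs fV))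

/-- The complement given by an element of the centraliser. -/
noncomputable def wS (s : Γ) (hsH : s ∈ tH σ) : Subgroup Γ where
  carrier := {y | ∃ x ∈ tQ σ, ∃ d ∈ Subgroup.zpowers (c0 hs), y = ⁅s, x⁆ * d}
  one_mem' := ⟨1, one_mem _, 1, one_mem _, by simp⟩
  mul_mem' := by
    rintro _ _ ⟨x, hx, d, hd, rfl⟩ ⟨x', hx', d', hd', rfl⟩
    refine ⟨x * x', mul_mem hx hx', ⁅x, ⁅s, x'⁆⁆⁻¹ * (d * d'), mul_mem (inv_mem ?_) (mul_mem hd hd'), ?_⟩
    · exact comm_tQ_mem hc hs hπs hπk hx (by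
        rw [commutatorElement_def]; exact mul_mem (conj_tQ hsH hx') (inv_mem hx'))
    · have hsx : ⁅s, x'⁆ ∈ tQ σ := by
        rw [commutatorElement_def]; exact mul_mem (conj_tQ hsH hx') (inv_mem hx')
      have hA : ⁅x, ⁅s, x'⁆⁆⁻¹ ∈ tA σ :=
        inv_mem (comm_mem_tA hx hsx)
      have hd1 : d * ⁅s, x'⁆ = ⁅s, x'⁆ * d :=
        tA_central hc hs hπs hπk (zpowers_c0_le_tA hs hd) (tQ_le_tH σ hsx)
      have hconj : x * ⁅s, x'⁆ * x⁻¹ = ⁅x, ⁅s, x'⁆⁆ * ⁅s, x'⁆ := by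
        simp only [commutatorElement_def]; group
      have hid : ⁅s, x * x'⁆ = ⁅s, x⁆ * (x * ⁅s, x'⁆ * x⁻¹) := by
        simp only [commutatorElement_def]; group
      have hB := tA_central hc hs hπs hπk (comm_mem_tA hx hsx) (tQ_le_tH σ hsx)
      rw [hid, hconj, hB]
      calc ⁅s, x⁆ * d * (⁅s, x'⁆ * d') = ⁅s, x⁆ * (d * ⁅s, x'⁆) * d' := by simp only [mul_assoc]
        _ = ⁅s, x⁆ * (⁅s, x'⁆ * d) * d' := by rw [hd1]
        _ = _ := by group
  inv_mem' := by
    rintro _ ⟨x, hx, d, hd, rfl⟩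
    have hsx : ∀ {z : Γ}, z ∈ tQ σ → ⁅s, z⁆ ∈ tQ σ := fun hz => by
      rw [commutatorElement_def]; exact mul_mem (conj_tQ hsH hz) (inv_mem hz)
    refine ⟨x⁻¹, inv_mem hx, ⁅x, ⁅s, x⁻¹⁆⁆ * d⁻¹,
      mul_mem (comm_tQ_mem hc hs hπs hπk hx (hsx (inv_mem hx))) (inv_mem hd), ?_⟩
    have hA := comm_mem_tA hx (hsx (inv_mem hx))
    have hB := tA_central hc hs hπs hπk hA (tQ_le_tH σ (hsx (inv_mem hx)))
    have hd1 := tA_central hc hs hπs hπk (zpowers_c0_le_tA hs (inv_mem hd)) (tQ_le_tH σ (inv_mem (hsx hx)))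
    rw [mul_inv_rev, hd1, ← mul_assoc, ← hB]
    congr 1
    simp only [commutatorElement_def]; group

theorem mem_wS {s : Γ} {hsH : s ∈ tH σ} {y : Γ} :
    y ∈ wS hc hs hπs hπk s hsH ↔ ∃ x ∈ tQ σ, ∃ d ∈ Subgroup.zpowers (c0 hs), y = ⁅s, x⁆ * d := Iff.rfl

theorem wS_le_tQ {s : Γ} {hsH : s ∈ tH σ} : wS hc hs hπs hπk s hsH ≤ tQ σ := by
  rintro _ ⟨x, hx, d, hd, rfl⟩
  refine mul_mem (by rw [commutatorElement_def]; exact mul_mem (conj_tQ hsH hx) (inv_mem hx)) ?_
  have h := zpowers_c0_le_tA hs hd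
  rcases mem_tA_iff.1 h with h | h
  · show σ d ∈ Q; rw [h]; exact one_mem _
  · show σ d ∈ Q; rw [h]; exact zS_mem_Q

theorem theta_comm {s x : Γ} (hsH : s ∈ tH σ) (hx : x ∈ tQ σ) :
    theta (σ ⁅s, x⁆) = act (σ s) (theta (σ x)) + theta (σ x) := by
  rw [map_commutatorElement, commutatorElement_def,
    theta_mul (conj_mem (H_le_Nz hsH) hx) (inv_mem hx), act_theta (H_le_Nz hsH) hx]
  congr 1
  have h := theta_mul (x := σ x) (y := (σ x)⁻¹) hx (inv_mem hx)
  rw [mul_inv_cancel, show theta 1 = 0 by simpa [zb] using theta_zb false] at h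
  exact (vadd_eq_zero.1 h.symm).symm

theorem theta_c0 {d : Γ} (hd : d ∈ Subgroup.zpowers (c0 hs)) : theta (σ d) = 0 := by
  rcases mem_tA_iff.1 (zpowers_c0_le_tA hs hd) with h | h
  · rw [h]; simpa [zb] using theta_zb false
  · rw [h]; simpa [zb] using theta_zb true

theorem wS_ker {s : Γ} {hsH : s ∈ tH σ} (hfix : ∀ v, act (σ s) v = v → v = 0) {y : Γ}
    (hy : y ∈ wS hc hs hπs hπk s hsH) (hk : y ∈ σ.ker) : y = 1 := by
  obtain ⟨x, hx, d, hd, rfl⟩ := hy
  have hsx : ⁅s, x⁆ ∈ tQ σ := by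
    rw [commutatorElement_def]; exact mul_mem (conj_tQ hsH hx) (inv_mem hx)
  have h0 : theta (σ x) = 0 := by
    have h := congrArg theta (MonoidHom.mem_ker.1 hk)
    rw [map_mul, theta_mul hsx (show σ d ∈ Q by
        rcases mem_tA_iff.1 (zpowers_c0_le_tA hs hd) with h | h
        · rw [h]; exact one_mem _
        · rw [h]; exact zS_mem_Q),
      theta_c0 hc hs hπs hπk hd, add_zero, theta_comm hc hs hπs hπk hsH hx,
      show theta 1 = 0 by simpa [zb] using theta_zb false] at h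
    exact hfix _ (vadd_eq_zero.1 h)
  have hxA := tA_of_theta hx h0
  rw [commutatorElement_eq_one_iff_mul_comm.2 (tA_central hc hs hπs hπk hxA hsH).symm, one_mul] at hk ⊢
  exact zpowers_c0_ker hc hs hπs hπk hd hk

theorem tQ_split {s : Γ} {hsH : s ∈ tH σ} (hfix : ∀ v, act (σ s) v = v → v = 0) {y : Γ}
    (hy : y ∈ tQ σ) : ∃ k ∈ σ.ker, ∃ w ∈ wS hc hs hπs hπk s hsH, y = k * w := by
  obtain ⟨u, hu⟩ : ∃ u, act (σ s) u + u = theta (σ y) := by
    have hinj : Function.Injective fun u => act (σ s) u + u := by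
      intro a b e
      have e' : act (σ s) a + a = act (σ s) b + b := e
      refine vadd_eq_zero.1 (hfix _ ?_)
      refine vadd_eq_zero.1 ?_
      rw [act_add (H_le_Nz hsH),
        show act (σ s) a + act (σ s) b + (a + b) = (act (σ s) a + a) + (act (σ s) b + b) by abel, e',
        vadd_self]
    exact Finite.injective_iff_surjective.1 hinj _
  have hx := lX_mem hs u
  have hsx : ⁅s, lX hs u⁆ ∈ tQ σ := by
    rw [commutatorElement_def]; exact mul_mem (conj_tQ hsH hx) (inv_mem hx)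
  obtain ⟨a, ha, ea⟩ := exists_tA hy hsx (by rw [theta_comm hc hs hπs hπk hsH hx, theta_lX, hu])
  obtain ⟨k, hk, d, hd, rfl⟩ := tA_split hc hs hπs hπk ha
  refine ⟨k, hk, ⁅s, lX hs u⁆ * d, ⟨_, hx, d, hd, rfl⟩, ?_⟩
  rw [ea, ← mul_assoc, CfsgLib.SchurMult.ker_comm hc hk, mul_assoc]

theorem wS_le_of_act {s t : Γ} {hsH : s ∈ tH σ} {htH : t ∈ tH σ}
    (h : ∀ v, act (σ t) v = act (σ s) v) :
    wS hc hs hπs hπk t htH ≤ wS hc hs hπs hπk s hsH := by
  rintro _ ⟨x, hx, d, hd, rfl⟩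
  have hq : s⁻¹ * t ∈ tQ σ := by
    show σ _ ∈ Q
    rw [map_mul, map_inv]
    exact inv_mul_mem_Q hsH htH fun v => (h v).symm
  have hA := comm_mem_tA hq hx
  have e : ⁅t, x⁆ = s * ⁅s⁻¹ * t, x⁆ * s⁻¹ * ⁅s, x⁆ := by simp only [commutatorElement_def]; group
  have hc1 := tA_central hc hs hπs hπk hA hsH
  have hc2 := tA_central hc hs hπs hπk hA
    (tQ_le_tH σ (show ⁅s, x⁆ ∈ tQ σ by
      rw [commutatorElement_def]; exact mul_mem (conj_tQ hsH hx) (inv_mem hx)))
  refine ⟨x, hx, ⁅s⁻¹ * t, x⁆ * d, mul_mem (comm_tQ_mem hc hs hπs hπk hq hx) hd, ?_⟩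
  rw [e, ← hc1, mul_inv_cancel_right, hc2, mul_assoc]

theorem conj_wS {s g : Γ} {hsH : s ∈ tH σ} (hg : g ∈ tH σ) {y : Γ}
    (hy : y ∈ wS hc hs hπs hπk s hsH) :
    g * y * g⁻¹ ∈ wS hc hs hπs hπk (g * s * g⁻¹) (mul_mem (mul_mem hg hsH) (inv_mem hg)) := by
  obtain ⟨x, hx, d, hd, rfl⟩ := hy
  refine ⟨g * x * g⁻¹, conj_tQ hg hx, d, hd, ?_⟩
  rw [← conjugate_commutatorElement]
  have := tA_central hc hs hπs hπk (zpowers_c0_le_tA hs hd) (inv_mem hg)
  simp only [mul_assoc]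
  rw [this]

theorem wS_le_of_commute {s t : Γ} {hsH : s ∈ tH σ} {htH : t ∈ tH σ}
    (hfix : ∀ v, act (σ s) v = v → v = 0)
    (h : ∀ v, act (σ s) (act (σ t) v) = act (σ t) (act (σ s) v)) :
    wS hc hs hπs hπk t htH ≤ wS hc hs hπs hπk s hsH := by
  rintro _ ⟨x, hx, d, hd, rfl⟩
  obtain ⟨k, hk, w, hw, rfl⟩ := tQ_split hc hs hπs hπk (hsH := hsH) hfix hx
  have h1 : ⁅t, k * w⁆ = (t * w * t⁻¹) * w⁻¹ := by
    have e1 := CfsgLib.SchurMult.ker_comm hc hk t
    calc ⁅t, k * w⁆ = t * k * w * t⁻¹ * w⁻¹ * k⁻¹ := by simp only [commutatorElement_def]; group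
      _ = k * (t * w * t⁻¹ * w⁻¹) * k⁻¹ := by rw [e1]; group
      _ = _ := by rw [← CfsgLib.SchurMult.ker_comm hc hk, mul_inv_cancel_right]
  have h2 : t * w * t⁻¹ ∈ wS hc hs hπs hπk s hsH := by
    refine wS_le_of_act hc hs hπs hπk (fun v => ?_) (conj_wS hc hs hπs hπk htH hw)
    have ht := H_le_Nz htH
    have hs' := H_le_Nz hsH
    rw [map_mul, map_mul, map_inv, act_mul (mul_mem ht hs') (inv_mem ht), act_mul ht hs', ← h,
      ← act_mul ht (inv_mem ht), mul_inv_cancel, act_one]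
  refine mul_mem ?_ ?_
  · rw [h1]; exact mul_mem h2 (inv_mem hw)
  · exact ⟨1, one_mem _, d, hd, by rw [commutatorElement_one_right, one_mul]⟩

omit hc hπs hπk in
theorem lgW_mem (w : List (Fin 2)) : lf hs (gW w : Sx) ∈ tH σ := by
  show σ _ ∈ H
  rw [map_lf]; exact gW_mem_H w

/-- The complement given by the first fixed-point-free element. -/
noncomputable def wT : Subgroup Γ := wS hc hs hπs hπk (lf hs (gW [0, 0, 0] : Sx)) (lgW_mem hs _)

theorem fix_gW {k : Fin 2} {w : List (Fin 2)} (hw : w ∈ chainF k) :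
    ∀ v, act (σ (lf hs (gW w : Sx))) v = v → v = 0 := fun v hv => by
  rw [map_lf, act_gW] at hv
  exact (fpf_ok k w hw v).resolve_right fun h => h hv

theorem wS_chain_eq (k : Fin 2) : ∀ l : List (List (Fin 2)), (∀ w ∈ l, w ∈ chainF k) →
    (∀ p ∈ l.zip l.tail, ∀ v, wAct p.1 (wAct p.2 v) = wAct p.2 (wAct p.1 v)) → ∀ a, l.head? = some a →
    wS hc hs hπs hπk (lf hs (gW (l.getLastD []) : Sx)) (lgW_mem hs _) ≤
      wS hc hs hπs hπk (lf hs (gW a : Sx)) (lgW_mem hs _)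
  | [], _, _, a, ha => by simp at ha
  | [b], _, _, a, ha => by
    simp only [List.head?_cons, Option.some.injEq] at ha
    subst ha
    exact le_rfl
  | b :: b' :: l, hm, hz, a, ha => by
    simp only [List.head?_cons, Option.some.injEq] at ha
    subst ha
    have h1 := wS_chain_eq k (b' :: l) (fun w hw => hm w (List.mem_cons_of_mem _ hw))
      (fun p hp => hz p (by simp only [List.tail_cons, List.zip_cons_cons]; exact List.mem_cons_of_mem _ hp))
      b' rfl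
    have h2 : (b :: b' :: l).getLastD [] = (b' :: l).getLastD [] := by simp
    rw [h2]
    refine h1.trans (wS_le_of_commute hc hs hπs hπk (fix_gW hc hs hπs hπk (hm b (List.mem_cons_self ..)))
      fun v => ?_)
    simp only [map_lf, act_gW]
    exact hz (b, b') (by simp) v

theorem wT_conj {g : Γ} (hg : g ∈ tH σ) {k : Fin 2} (hgk : σ g = el (hm k)) {y : Γ}
    (hy : y ∈ wT hc hs hπs hπk) : g * y * g⁻¹ ∈ wT hc hs hπs hπk := by
  obtain ⟨hzip, -⟩ : (∀ p ∈ (chainF k).zip (chainF k).tail, ∀ v,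
      wAct p.1 (wAct p.2 v) = wAct p.2 (wAct p.1 v)) ∧ True :=
    ⟨fun p hp v => (chain_ok k v).1 p hp, trivial⟩
  have h1 := wS_chain_eq hc hs hπs hπk k (chainF k) (fun w hw => hw) hzip [0, 0, 0]
    (by fin_cases k <;> rfl)
  refine h1 (wS_le_of_act hc hs hπs hπk (fun v => ?_) (conj_wS hc hs hπs hπk hg hy))
  have hN := H_le_Nz hg
  have hsN := H_le_Nz (lgW_mem hs [0, 0, 0])
  rw [map_mul, map_mul, map_inv, act_mul (mul_mem hN hsN) (inv_mem hN), act_mul hN hsN]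
  simp only [map_lf, act_gW, hgk, act_hm]
  rw [(chain_ok k _).2]
  congr 1
  rw [← act_hm, ← act_mul (hm_mem_Nz k) (inv_mem (hm_mem_Nz k)), mul_inv_cancel, act_one]

variable [Finite Γ]

theorem tH_le_normalizer : tH σ ≤ Subgroup.normalizer (wT hc hs hπs hπk : Set Γ) := by
  set W := wT hc hs hπs hπk
  have hgen : ∀ k : Fin 2, lf hs (el (hm k)) ∈ Subgroup.normalizer (W : Set Γ) := by
    intro k
    have hg : lf hs (el (hm k)) ∈ tH σ := by show σ _ ∈ H; rw [map_lf]; exact (hm_mem_Nz k).1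
    refine Subgroup.mem_normalizer_iff.2 fun y =>
      ⟨wT_conj hc hs hπs hπk hg (map_lf hs _), fun hy => ?_⟩
    let f : W → W := fun z => ⟨_, wT_conj hc hs hπs hπk hg (map_lf hs _) z.2⟩
    have hf : Function.Injective f := fun a b h =>
      Subtype.ext (mul_left_cancel (mul_right_cancel (congrArg Subtype.val h)))
    obtain ⟨⟨z, hz⟩, hz'⟩ := (Finite.injective_iff_surjective.1 hf) ⟨_, hy⟩
    have hzy : z = y := mul_left_cancel (mul_right_cancel (congrArg Subtype.val hz'))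
    exact hzy ▸ hz
  have hQ : tQ σ ≤ Subgroup.normalizer (W : Set Γ) := by
    intro x hx
    have hconj : ∀ x ∈ tQ σ, ∀ y ∈ W, x * y * x⁻¹ ∈ W := fun x hx y hy => by
      have hyQ := wS_le_tQ hc hs hπs hπk hy
      have e : x * y * x⁻¹ = ⁅x, y⁆ * y := by simp only [commutatorElement_def]; group
      rw [e]
      refine mul_mem ⟨1, one_mem _, _, comm_tQ_mem hc hs hπs hπk hx hyQ, ?_⟩ hy
      rw [commutatorElement_one_right, one_mul]
    refine Subgroup.mem_normalizer_iff.2 fun y => ⟨hconj x hx y, fun hy => ?_⟩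
    have := hconj x⁻¹ (inv_mem hx) _ hy
    rwa [show x⁻¹ * (x * y * x⁻¹) * x⁻¹⁻¹ = y by group] at this
  have hker : σ.ker ≤ Subgroup.normalizer (W : Set Γ) := fun k hk => hQ (by
    show σ k ∈ Q; rw [MonoidHom.mem_ker.1 hk]; exact one_mem _)
  have hM : H ≤ (Subgroup.normalizer (W : Set Γ)).map σ :=
    H_le_of_gens (fun q hq => ⟨lf hs q, hQ (by show σ _ ∈ Q; rw [map_lf]; exact hq), map_lf hs q⟩)
      fun k => ⟨_, hgen k, map_lf hs _⟩
  intro h hh
  obtain ⟨n, hn, e⟩ := hM hh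
  have : n⁻¹ * h ∈ σ.ker := by rw [MonoidHom.mem_ker, map_mul, map_inv, e, inv_mul_cancel]
  simpa using mul_mem hn (hker this)

/-- The local bound at the prime two. -/
theorem two_local_of : ∃ c : Γ, c ^ 2 = 1 ∧
    ∀ z ∈ ⁅tH σ, tH σ⁆, z ∈ σ.ker → z ∈ Subgroup.zpowers c := by
  classical
  set W := wT hc hs hπs hπk with hWdef
  haveI : (W.subgroupOf (tH σ)).Normal :=
    ⟨fun y hy n => Subgroup.mem_subgroupOf.2
      ((Subgroup.mem_normalizer_iff.1 (tH_le_normalizer hc hs hπs hπk n.2) _).1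
        (Subgroup.mem_subgroupOf.1 hy))⟩
  set N := W.subgroupOf (tH σ)
  let η : tH σ →* P4 := π.comp (σ.subgroupComap H)
  have hηk : N ≤ η.ker := fun y hy => by
    have : σ.subgroupComap H y ∈ π.ker := by
      rw [hπk]; exact Subgroup.mem_subgroupOf.2 (wS_le_tQ hc hs hπs hπk (hsH := lgW_mem hs _) hy)
    exact this
  let ρ : tH σ ⧸ N →* P4 := QuotientGroup.lift N η hηk
  have hρs : Function.Surjective ρ := fun p => by
    obtain ⟨x, rfl⟩ := hπs p
    exact ⟨QuotientGroup.mk' N ⟨lf hs x, by show σ _ ∈ H; rw [map_lf]; exact x.2⟩,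
      congrArg π (Subtype.ext (map_lf hs x))⟩
  have hfix : ∀ v, act (σ (lf hs (gW [0, 0, 0] : Sx))) v = v → v = 0 :=
    fix_gW hc hs hπs hπk (k := 0) (by simp [chainF])
  have hρc : ρ.ker ≤ Subgroup.center (tH σ ⧸ N) := by
    intro q hq
    obtain ⟨y, rfl⟩ := QuotientGroup.mk'_surjective N q
    have hy : (y : Γ) ∈ tQ σ := by
      have : σ.subgroupComap H y ∈ π.ker := hq
      rw [hπk] at this
      exact Subgroup.mem_subgroupOf.1 this
    obtain ⟨k, hk, w, hw, e⟩ := tQ_split hc hs hπs hπk (hsH := lgW_mem hs [0, 0, 0]) hfix hy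
    have hkH : k ∈ tH σ := by
      show σ k ∈ H; rw [MonoidHom.mem_ker.1 hk]; exact one_mem _
    have hyk : QuotientGroup.mk' N y = QuotientGroup.mk' N ⟨k, hkH⟩ := by
      refine (QuotientGroup.eq.2 (Subgroup.mem_subgroupOf.2 ?_)).symm
      show k⁻¹ * (y : Γ) ∈ W
      rw [e, inv_mul_cancel_left]; exact hw
    refine Subgroup.mem_center_iff.2 fun q => ?_
    obtain ⟨x, rfl⟩ := QuotientGroup.mk'_surjective N q
    rw [hyk, ← map_mul, ← map_mul]
    exact congrArg _ (Subtype.ext (CfsgLib.SchurMult.ker_comm hc hk x))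
  -- the derived subgroup of the quotient
  set E := tH σ ⧸ N
  let τ : (commutator E : Subgroup E) →* P4 := ρ.comp (commutator E).subtype
  have hτs : Function.Surjective τ := by
    rw [← MonoidHom.range_eq_top, MonoidHom.range_comp, Subgroup.range_subtype, commutator_def,
      Subgroup.map_commutator, ← MonoidHom.range_eq_map, MonoidHom.range_eq_top.2 hρs, ← commutator_def,
      perfect_P4]
  have hperf : commutator (commutator E : Subgroup E) = ⊤ := by
    rw [eq_top_iff]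
    refine (Subgroup.map_le_map_iff_of_injective (f := (commutator E).subtype)
      (Subgroup.subtype_injective _)).1 ?_
    rw [← MonoidHom.range_eq_map, Subgroup.range_subtype, commutator_def (commutator E : Subgroup E),
      Subgroup.map_commutator, ← MonoidHom.range_eq_map, Subgroup.range_subtype]
    conv_lhs => rw [commutator_def]
    rw [Subgroup.commutator_le]
    intro x _ y _
    obtain ⟨a, ha⟩ := hτs (ρ x)
    obtain ⟨b, hb⟩ := hτs (ρ y)
    rw [CfsgLib.SchurMult.comm_eq_of_map_eq hρc (a' := (a : E)) (b' := (b : E)) ha.symm hb.symm]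
    exact Subgroup.commutator_mem_commutator a.2 b.2
  have hτ : Cfsg.IsStemExtension τ := by
    refine ⟨hτs, fun x hx => Subgroup.mem_center_iff.2 fun y => Subtype.ext ?_, by rw [hperf]; exact le_top⟩
    exact Subgroup.mem_center_iff.1 (hρc (show (x : E) ∈ ρ.ker from hx)) (y : E)
  haveI : Fact (Nat.Prime 3) := ⟨Nat.prime_three⟩
  obtain ⟨φ, hφ⟩ : ∃ φ : Multiplicative (ZMod 2) →* τ.ker, Function.Surjective φ := (Cfsg.Agent.S2092.result (ZMod.card 3) 2 le_rfl (fun _ => le_rfl) (by norm_num)).2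
    _ τ hτ
  have hφ2 : Nat.card τ.ker ≤ 2 := (Nat.card_le_card_of_surjective φ hφ).trans (by simp)
  -- the kernel elements of the commutator subgroup inject
  set U : Subgroup Γ := ⁅tH σ, tH σ⁆ ⊓ σ.ker
  have hUH : U ≤ tH σ := fun z hz => by show σ z ∈ H; rw [MonoidHom.mem_ker.1 hz.2]; exact one_mem _
  have hcl : ∀ z : U, QuotientGroup.mk' N ⟨z, hUH z.2⟩ ∈ commutator E := by
    intro z
    have h1 : ⁅tH σ, tH σ⁆ = (commutator (tH σ)).map (tH σ).subtype := by
      rw [commutator_def, Subgroup.map_commutator, ← MonoidHom.range_eq_map, Subgroup.range_subtype]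
    obtain ⟨d, hd, hdz⟩ := h1 ▸ z.2.1
    have hm := Subgroup.mem_map_of_mem (QuotientGroup.mk' N) hd
    rw [commutator_def, Subgroup.map_commutator] at hm
    rw [show (⟨(z : Γ), hUH z.2⟩ : tH σ) = d from Subtype.ext hdz.symm]
    exact Subgroup.commutator_mono le_top le_top hm
  let F : U → τ.ker := fun z => ⟨⟨_, hcl z⟩, by
    show π (σ.subgroupComap H ⟨z, hUH z.2⟩) = 1
    rw [show σ.subgroupComap H ⟨z, hUH z.2⟩ = 1 from Subtype.ext (MonoidHom.mem_ker.1 z.2.2), map_one]⟩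
  have hF : Function.Injective F := by
    intro a b h
    have h' := congrArg (fun t : τ.ker => ((t : (commutator E : Subgroup E)) : E)) h
    have hm : ((a : Γ))⁻¹ * b ∈ W := Subgroup.mem_subgroupOf.1 (QuotientGroup.eq.1 h')
    have := wS_ker hc hs hπs hπk hfix hm (mul_mem (inv_mem a.2.2) b.2.2)
    exact Subtype.ext (inv_mul_eq_one.1 this)
  have hU : Nat.card U ≤ 2 := (Nat.card_le_card_of_injective F hF).trans hφ2
  have hUpos : 0 < Nat.card U := Nat.card_pos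
  rcases (show Nat.card U = 1 ∨ Nat.card U = 2 by omega) with h | h
  · refine ⟨1, one_pow 2, fun z hz hk => ?_⟩
    haveI := (Nat.card_eq_one_iff_unique.1 h).1
    have hz1 : (⟨z, hz, hk⟩ : U) = 1 := Subsingleton.elim _ _
    rw [show z = 1 from congrArg Subtype.val hz1]
    exact one_mem _
  · haveI : Fact (Nat.Prime 2) := ⟨Nat.prime_two⟩
    obtain ⟨c, hc'⟩ := exists_prime_orderOf_dvd_card' (G := U) 2 (h ▸ dvd_rfl)
    refine ⟨(c : Γ), ?_, fun z hz hk => ?_⟩
    · rw [← Subgroup.coe_pow, ← hc', pow_orderOf_eq_one, Subgroup.coe_one]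
    · have htop : Subgroup.zpowers c = ⊤ := Subgroup.eq_top_of_card_eq _ (by rw [Nat.card_zpowers, hc', h])
      obtain ⟨i, hi⟩ := Subgroup.mem_zpowers_iff.1 (htop ▸ Subgroup.mem_top (⟨z, hz, hk⟩ : U))
      exact ⟨i, by simpa using congrArg Subtype.val hi⟩

omit hπs hπk [Finite Γ] in
/-- The local criterion at the prime two. -/
theorem two_local [Finite Γ] : ∃ H₂ : Subgroup Sx, ¬ 2 ∣ H₂.index ∧ ∃ c : Γ, c ^ 2 = 1 ∧
    ∀ z ∈ ⁅H₂.comap σ, H₂.comap σ⁆, z ∈ σ.ker → z ∈ Subgroup.zpowers c := by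
  obtain ⟨e⟩ := nonempty_quot_equiv
  refine ⟨H, ?_, two_local_of hc hs (π := e.toMonoidHom.comp (QuotientGroup.mk' QH))
    (e.surjective.comp (QuotientGroup.mk'_surjective QH)) ?_⟩
  · intro h
    have hH : Nat.card H = 128 * 25920 := by
      rw [Subgroup.card_eq_card_quotient_mul_card_subgroup QH, Nat.card_congr e.toEquiv, card_P4, card_QH]
      norm_num
    have hS : Nat.card Sx = 448345497600 := by
      rw [← Nat.card_congr sectionEquiv.toEquiv, Cfsg.Agent.S1694.result.2]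
    obtain ⟨m, hm⟩ := h
    have := H.card_mul_index
    rw [hH, hS, hm] at this
    omega
  · ext x
    simp

end CfsgLib.SuzMult.Two
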