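import Cfsg.Agent.Lib.SuzMult.TwoQuot

/-!
The image of the involution centraliser on the coordinates is generated by the two further elements.
-/

set_option autoImplicit false
set_option maxRecDepth 100000
set_option synthInstance.maxSize 2000

namespace CfsgLib.SuzMult.Two

open Cfsg CfsgLib.SuzCo0 CfsgLib.SuzCo0.Cent CfsgLib.SuzukiType CfsgLib.ClassicalForms

/-- The subgroup generated by the images of the two further elements. -/
noncomputable def genO : Subgroup O :=
  Subgroup.closure (Set.range fun k : Fin 2 => rho ⟨el (hm k), hm_mem_Nz k⟩)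

theorem gW_mem (w : List (Fin 2)) : rho (gW w) ∈ genO := by
  rw [gW, map_list_prod, List.map_map]
  refine list_prod_mem fun g hg => ?_
  obtain ⟨k, -, rfl⟩ := List.mem_map.1 hg
  exact Subgroup.subset_closure ⟨k, rfl⟩

/-- The chain of stabilisers in it. -/
noncomputable def chainK : ℕ → Subgroup O
  | 0 => genO
  | l + 1 => chainK l ⊓ fixO (cBase.getD l 0)

theorem mem_chainK {l : ℕ} {g : O} :
    g ∈ chainK l ↔ g ∈ genO ∧ ∀ m < l, ap g (cBase.getD m 0) = cBase.getD m 0 := by
  induction l with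
  | zero => simp [chainK]
  | succ l ih =>
    rw [chainK, Subgroup.mem_inf, ih]
    constructor
    · rintro ⟨⟨h1, h2⟩, h3⟩
      refine ⟨h1, fun m hm => ?_⟩
      rcases Nat.lt_succ_iff_lt_or_eq.1 hm with h | h
      · exact h2 m h
      · exact h ▸ h3
    · exact fun ⟨h1, h2⟩ => ⟨⟨h1, fun m hm => h2 m (Nat.lt_succ_of_lt hm)⟩, h2 l (Nat.lt_succ_self l)⟩

theorem card_chainK_step {l : ℕ} (hl : l < 5) :
    [27, 16, 5, 4, 3].getD l 0 * Nat.card (chainK (l + 1)) ≤ Nat.card (chainK l) := by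
  have h := transv_ok
  simp only [List.all_eq_true, List.mem_range, Bool.and_eq_true, decide_eq_true_eq] at h
  obtain ⟨⟨hnd, hlen⟩, hw⟩ := h l hl
  rw [← hlen]
  have hb : ∀ s : chainK (l + 1), ap (s : O) (cBase.getD l 0) = cBase.getD l 0 := fun s =>
    (mem_chainK.1 s.2).2 l (Nat.lt_succ_self l)
  let f : Fin (transv l).length × chainK (l + 1) → chainK l := fun p =>
    ⟨rho (gW ((transv l)[p.1.1]).2) * p.2.1, by
      refine mul_mem (mem_chainK.2 ⟨gW_mem _, fun m hm => ?_⟩) p.2.2.1
      rw [ap_gW]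
      exact (hw _ (List.getElem_mem p.1.2)).2 m hm⟩
  have hf : Function.Injective f := by
    rintro ⟨i, s⟩ ⟨j, t⟩ e
    have e' : rho (gW ((transv l)[i.1]).2) * s.1 = rho (gW ((transv l)[j.1]).2) * t.1 :=
      congrArg Subtype.val e
    have ev := congrArg (fun g : O => ap g (cBase.getD l 0)) e'
    simp only [ap_mul, hb, ap_gW, (hw _ (List.getElem_mem i.2)).1,
      (hw _ (List.getElem_mem j.2)).1] at ev
    have hij : i = j := by
      refine Fin.ext ((List.Nodup.getElem_inj_iff hnd (hi := by simp [i.2]) (hj := by simp [j.2])).1 ?_)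
      simpa using ev
    subst hij
    exact Prod.ext rfl (Subtype.ext (mul_left_cancel e'))
  have := Nat.card_le_card_of_injective f hf
  rwa [Nat.card_prod, Nat.card_fin] at this

theorem genO_eq : genO = rho.range := by
  refine Subgroup.eq_of_le_of_card_ge ((Subgroup.closure_le _).2 (by rintro _ ⟨k, rfl⟩; exact ⟨_, rfl⟩)) ?_
  rw [counts.1]
  have h0 := card_chainK_step (l := 0) (by norm_num)
  have h1 := card_chainK_step (l := 1) (by norm_num)
  have h2 := card_chainK_step (l := 2) (by norm_num)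
  have h3 := card_chainK_step (l := 3) (by norm_num)
  have h4 := card_chainK_step (l := 4) (by norm_num)
  have h5 : 0 < Nat.card (chainK 5) := Nat.card_pos
  simp only [List.getD_cons_zero, List.getD_cons_succ, Nat.reduceAdd] at h0 h1 h2 h3 h4
  show 25920 ≤ Nat.card (chainK 0)
  omega

/-- A subgroup of the centraliser containing the subgroup of order 128 and the two further elements
is the whole centraliser. -/
theorem H_le_of_gens {M : Subgroup Sx} (hQ : Q ≤ M) (hg : ∀ k : Fin 2, el (hm k) ∈ M) : H ≤ M := by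
  intro c hc
  let M' : Subgroup Nz := M.subgroupOf Nz
  have hgen : genO ≤ M'.map rho := by
    rw [genO, Subgroup.closure_le]
    rintro _ ⟨k, rfl⟩
    exact ⟨_, Subgroup.mem_subgroupOf.2 (hg k), rfl⟩
  obtain ⟨m, hmM, hm'⟩ := hgen (genO_eq ▸ ⟨⟨c, H_le_Nz hc⟩, rfl⟩ : rho ⟨c, H_le_Nz hc⟩ ∈ genO)
  have hk : m⁻¹ * ⟨c, H_le_Nz hc⟩ ∈ rho.ker := by
    rw [MonoidHom.mem_ker, map_mul, map_inv, hm', inv_mul_cancel]
  rw [counts.2.1] at hk
  have h2 : (m : Sx)⁻¹ * c ∈ M := hQ (Subgroup.mem_subgroupOf.1 hk)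
  have := mul_mem (Subgroup.mem_subgroupOf.1 hmM) h2
  rwa [mul_inv_cancel_left] at this

/-- Elements of the centraliser acting alike differ by an element of the subgroup of order 128. -/
theorem inv_mul_mem_Q {c d : Sx} (hc : c ∈ H) (hd : d ∈ H) (h : ∀ v, act c v = act d v) :
    c⁻¹ * d ∈ Q := by
  have hk : (⟨c, H_le_Nz hc⟩⁻¹ * ⟨d, H_le_Nz hd⟩ : Nz) ∈ rho.ker := by
    rw [MonoidHom.mem_ker, map_mul, map_inv, inv_mul_eq_one]
    exact orth_ext fun v => h v
  rw [counts.2.1] at hk
  exact Subgroup.mem_subgroupOf.1 hk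

theorem act_gW (w : List (Fin 2)) (v : V) : act (gW w : Sx) v = wAct w v := by
  rw [← ap_rho, ap_gW]

theorem gW_mem_H (w : List (Fin 2)) : (gW w : Sx) ∈ H := (gW w).2.1

end CfsgLib.SuzMult.Two
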