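import Cfsg.Agent.Lib.SuzMult.TwoGen

/-!
The preimage of the extraspecial subgroup of the involution centraliser in a central extension of the
section: the involution stays central and the commutators lie in one subgroup of order two.
-/

set_option autoImplicit false
set_option maxRecDepth 100000
set_option synthInstance.maxSize 2000

namespace CfsgLib.SuzMult.Two

open Cfsg CfsgLib.SuzCo0 CfsgLib.SuzCo0.Cent CfsgLib.SuzukiType CfsgLib.ClassicalForms
open scoped commutatorElement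

variable {Γ : Type} [Group Γ] {σ : Γ →* Sx}

/-- The preimage of the centraliser. -/
noncomputable abbrev tH (σ : Γ →* Sx) : Subgroup Γ := H.comap σ

/-- The preimage of the subgroup of order 128. -/
noncomputable abbrev tQ (σ : Γ →* Sx) : Subgroup Γ := Q.comap σ

theorem tQ_le_tH (σ : Γ →* Sx) : tQ σ ≤ tH σ :=
  Subgroup.comap_mono (Q_le_Nz.trans inf_le_left)

variable (hc : σ.ker ≤ Subgroup.center Γ) (hs : Function.Surjective σ)

/-- A lift of an element. -/
noncomputable def lf (x : Sx) : Γ := (hs x).choose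

theorem map_lf (x : Sx) : σ (lf hs x) = x := (hs x).choose_spec

theorem conj_tQ {h : Γ} (hh : h ∈ tH σ) {x : Γ} (hx : x ∈ tQ σ) : h * x * h⁻¹ ∈ tQ σ := by
  show σ (h * x * h⁻¹) ∈ Q
  rw [map_mul, map_mul, map_inv]
  exact conj_mem (H_le_Nz hh) hx

include hc

theorem comm_zS_ker {h : Γ} (hh : h ∈ tH σ) : ⁅lf hs zS, h⁆ ∈ σ.ker := by
  rw [MonoidHom.mem_ker, map_commutatorElement, map_lf, commutatorElement_eq_one_iff_mul_comm]
  exact (Nz_comm (H_le_Nz hh)).symm

theorem comm_zS_mul {a b : Γ} (ha : a ∈ tH σ) (hb : b ∈ tH σ) :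
    ⁅lf hs zS, a * b⁆ = ⁅lf hs zS, a⁆ * ⁅lf hs zS, b⁆ := by
  refine CfsgLib.SchurMult.comm_mul_right hc ?_
  rw [map_lf]
  exact (Nz_comm (H_le_Nz hb)).symm

/-- The elements commuting with a lift of the involution. -/
noncomputable def cz : Subgroup Γ where
  carrier := {h | h ∈ tH σ ∧ ⁅lf hs zS, h⁆ = 1}
  one_mem' := ⟨one_mem _, commutatorElement_one_right _⟩
  mul_mem' := by
    rintro a b ⟨ha, ha'⟩ ⟨hb, hb'⟩
    exact ⟨mul_mem ha hb, by rw [comm_zS_mul hc hs ha hb, ha', hb', one_mul]⟩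
  inv_mem' := by
    rintro a ⟨ha, ha'⟩
    refine ⟨inv_mem ha, ?_⟩
    have h := comm_zS_mul hc hs ha (inv_mem ha)
    rwa [mul_inv_cancel, commutatorElement_one_right, ha', one_mul, eq_comm] at h

theorem tQ_le_cz : tQ σ ≤ cz hc hs := by
  set z := lf hs zS with hz
  set f : V → Γ := fun v => ⁅z, lf hs (X v)⁆ with hf
  have hXH : ∀ v, X v ∈ H := fun v => Q_le_Nz.trans inf_le_left (X_mem_Q v)
  have hfv : ∀ {x : Γ}, x ∈ tQ σ → ⁅z, x⁆ = f (theta (σ x)) := by
    intro x hx
    obtain ⟨v, e, hve⟩ := hx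
    have ht : theta (σ x) = v := by rw [hve, theta_X]
    rw [ht]
    have hz1 : ⁅z, bif e then z else 1⁆ = 1 := by cases e <;> simp
    have hzb : σ (bif e then z else 1) = zb e := by cases e <;> simp [hz, map_lf, zb]
    rw [hf]
    show ⁅z, x⁆ = ⁅z, lf hs (X v)⁆
    rw [CfsgLib.SchurMult.comm_eq_of_map_eq hc (a := z) (a' := z) rfl
      (b := x) (b' := lf hs (X v) * (bif e then z else 1)) (by rw [map_mul, map_lf, hzb, hve]),
      comm_zS_mul hc hs (show lf hs (X v) ∈ tH σ by show σ _ ∈ H; rw [map_lf]; exact hXH v)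
        (show (bif e then z else 1) ∈ tH σ by
          show σ _ ∈ H; rw [hzb]; exact Q_le_Nz.trans inf_le_left (zb_mem_Q e)), ← hz, hz1, mul_one]
  have hmemX : ∀ v, lf hs (X v) ∈ tQ σ := fun v => by show σ _ ∈ Q; rw [map_lf]; exact X_mem_Q v
  have fadd : ∀ u v, f (u + v) = f u * f v := by
    intro u v
    have h1 := hfv (mul_mem (hmemX u) (hmemX v))
    rw [map_mul, map_lf, map_lf, theta_mul (X_mem_Q u) (X_mem_Q v), theta_X', theta_X'] at h1
    rw [← h1]
    exact comm_zS_mul hc hs (tQ_le_tH σ (hmemX u)) (tQ_le_tH σ (hmemX v))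
  have hinv : ∀ {c : Sx}, c ∈ H → ∀ v, f (act c v) = f v := by
    intro c hc' v
    have hcl : lf hs c ∈ tH σ := by show σ _ ∈ H; rw [map_lf]; exact hc'
    have hx := hmemX v
    have h1 := hfv (conj_tQ hcl hx)
    rw [map_mul, map_mul, map_inv, map_lf, map_lf] at h1
    have h2 : theta (c * X v * c⁻¹) = act c v := rfl
    rw [h2] at h1
    have h3 : ⁅z, lf hs (X v)⁆ = f v := rfl
    rw [← h1, ← h3]
    rw [comm_zS_mul hc hs (mul_mem hcl (tQ_le_tH σ hx)) (inv_mem hcl),
      comm_zS_mul hc hs hcl (tQ_le_tH σ hx),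
      ← CfsgLib.SchurMult.ker_comm hc (comm_zS_ker hc hs hcl) _, mul_assoc,
      ← comm_zS_mul hc hs hcl (inv_mem hcl), mul_inv_cancel, commutatorElement_one_right, mul_one]
  have hzero : ∀ v, f v = 1 := by
    intro v
    obtain ⟨w, hw⟩ : ∃ w, wAct [0, 0, 0] w + w = v := by
      have hadd : ∀ a b, wAct [0, 0, 0] (a + b) = wAct [0, 0, 0] a + wAct [0, 0, 0] b := fun a b => by
        simp only [← act_gW]
        exact act_add (gW _).2 a b
      have hinj : Function.Injective fun w => wAct [0, 0, 0] w + w := by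
        intro a b e
        have h : wAct [0, 0, 0] (a + b) = a + b := by
          rw [hadd]
          have e' := congrArg (fun t => t + a + wAct [0, 0, 0] b) (show _ = _ from e)
          simp only at e'
          calc wAct [0, 0, 0] a + wAct [0, 0, 0] b = wAct [0, 0, 0] a + a + a + wAct [0, 0, 0] b := by
                rw [add_assoc (wAct [0, 0, 0] a) a a, vadd_self, add_zero]
            _ = wAct [0, 0, 0] b + b + a + wAct [0, 0, 0] b := e'
            _ = a + b := by
              rw [add_comm (wAct [0, 0, 0] b) b, add_assoc b, add_comm (wAct [0, 0, 0] b) a,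
                add_assoc, add_assoc a, vadd_self, add_zero, add_comm]
        rcases fpf_ok 0 [0, 0, 0] (by simp [chainF]) (a + b) with h0 | h0
        · exact vadd_eq_zero.1 h0
        · exact absurd h h0
      exact Finite.injective_iff_surjective.1 hinj v
    rw [← hw, fadd, ← act_gW, hinv (gW_mem_H _), ← fadd, vadd_self]
    have h0 := fadd 0 0
    rw [add_zero] at h0
    exact left_eq_mul.1 h0
  intro x hx
  exact ⟨tQ_le_tH σ hx, by rw [hfv hx, hzero]⟩

theorem tH_le_cz {π : H →* P4} (hπs : Function.Surjective π) (hπk : π.ker = QH) : tH σ ≤ cz hc hs := by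
  let η : tH σ →* P4 := π.comp (σ.subgroupComap H)
  have hηs : Function.Surjective η := hπs.comp (fun x => ⟨⟨lf hs x, by
    show σ _ ∈ H; rw [map_lf]; exact x.2⟩, Subtype.ext (map_lf hs x)⟩)
  intro h hh
  have htop : (⊤ : Subgroup P4) ≤ (commutator (tH σ)).map η := by
    rw [commutator_def (G := tH σ), Subgroup.map_commutator, Subgroup.map_top_of_surjective η hηs,
      ← commutator_def, perfect_P4]
  obtain ⟨d, hd, hdη⟩ := htop (Subgroup.mem_top (η ⟨h, hh⟩))
  have hq : ((d⁻¹ * ⟨h, hh⟩ : tH σ) : Γ) ∈ tQ σ := by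
    have : σ.subgroupComap H (d⁻¹ * ⟨h, hh⟩) ∈ π.ker := by
      rw [MonoidHom.mem_ker]
      show η (d⁻¹ * ⟨h, hh⟩) = 1
      rw [map_mul, map_inv, hdη, inv_mul_cancel]
    rw [hπk] at this
    exact Subgroup.mem_subgroupOf.1 this
  have hd' : (d : Γ) ∈ cz hc hs := by
    have hle : commutator (tH σ) ≤ (cz hc hs).subgroupOf (tH σ) := by
      rw [commutator_def, Subgroup.commutator_le]
      intro a _ b _
      refine Subgroup.mem_subgroupOf.2 ⟨(⁅a, b⁆ : tH σ).2, ?_⟩
      show ⁅lf hs zS, (a : Γ) * b * (a : Γ)⁻¹ * (b : Γ)⁻¹⁆ = 1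
      have hk := CfsgLib.SchurMult.ker_comm hc (comm_zS_ker hc hs a.2) ⁅lf hs zS, (b : Γ)⁆
      rw [comm_zS_mul hc hs (mul_mem (mul_mem a.2 b.2) (inv_mem a.2)) (inv_mem b.2),
        comm_zS_mul hc hs (mul_mem a.2 b.2) (inv_mem a.2), comm_zS_mul hc hs a.2 b.2, ← hk,
        mul_assoc ⁅lf hs zS, (b : Γ)⁆, ← comm_zS_mul hc hs a.2 (inv_mem a.2), mul_inv_cancel,
        commutatorElement_one_right, mul_one, ← comm_zS_mul hc hs b.2 (inv_mem b.2), mul_inv_cancel,
        commutatorElement_one_right]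
    exact Subgroup.mem_subgroupOf.1 (hle hd)
  have := mul_mem hd' (tQ_le_cz hc hs hq)
  simpa using this

omit hc in
/-- The preimage of the involution's group. -/
noncomputable abbrev tA (σ : Γ →* Sx) : Subgroup Γ := (Subgroup.zpowers zS).comap σ

omit hc in
theorem mem_tA_iff {a : Γ} : a ∈ tA σ ↔ σ a = 1 ∨ σ a = zS := by
  constructor
  · intro h
    obtain ⟨k, hk⟩ := Subgroup.mem_zpowers_iff.1 h
    rcases Int.even_or_odd k with ⟨j, rfl⟩ | ⟨j, rfl⟩
    · left; rw [← hk, zpow_add, ← (Commute.refl zS).mul_zpow, zS_mul_zS, one_zpow]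
    · right; rw [← hk, zpow_add, zpow_one, zpow_mul, zpow_two, zS_mul_zS, one_zpow, one_mul]
  · rintro (h | h)
    · show σ a ∈ Subgroup.zpowers zS; rw [h]; exact one_mem _
    · show σ a ∈ Subgroup.zpowers zS; rw [h]; exact Subgroup.mem_zpowers _

include hs in
theorem tA_comm {π : H →* P4} (hπs : Function.Surjective π) (hπk : π.ker = QH) {a h : Γ}
    (ha : a ∈ tA σ) (hh : h ∈ tH σ) : a * h = h * a := by
  rcases mem_tA_iff.1 ha with ha | ha
  · exact (CfsgLib.SchurMult.ker_comm hc (MonoidHom.mem_ker.2 ha) h).symm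
  · have h1 := (tH_le_cz hc hs hπs hπk hh).2
    rw [← CfsgLib.SchurMult.comm_eq_of_map_eq hc (a := a) (b := h) (by rw [map_lf, ha]) rfl] at h1
    exact commutatorElement_eq_one_iff_mul_comm.1 h1

end CfsgLib.SuzMult.Two
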