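import Cfsg.Agent.Lib.SuzCo0.Cent
import Cfsg.Agent.S2092
import Cfsg.Agent.S0822
import Cfsg.Agent.S0303
import Cfsg.Agent.S0270
import Cfsg.Agent.Lib.ClassicalLinear.SympCard
import Mathlib.FieldTheory.Finite.GaloisField

/-!
The quotient of the involution centraliser is `PSp₄(3)`, and checks for the fixed-point-free elements.
-/

set_option autoImplicit false
set_option maxRecDepth 100000
set_option synthInstance.maxSize 2000

namespace CfsgLib.SuzMult.Two

open scoped commutatorElement
open Cfsg CfsgLib.SuzCo0 CfsgLib.SuzCo0.Cent CfsgLib.SuzukiType CfsgLib.ClassicalForms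

theorem minus_aniso : ∀ z₁ z₂ : ZMod 2, z₁ ^ 2 + 1 * z₁ * z₂ + 1 * z₂ ^ 2 = 0 → z₁ = 0 ∧ z₂ = 0 := by
  decide

/-- The target. -/
abbrev P4 : Type := Cfsg.PSp 2 (ZMod 3)

theorem card_P4 : Nat.card P4 = 25920 := by
  have h := Subgroup.card_eq_card_quotient_mul_card_subgroup
    (Subgroup.center (Matrix.symplecticGroup (Fin 2) (ZMod 3)))
  rw [CfsgLib.ClassicalLinear.card_sp, CfsgLib.ClassicalLinear.card_center_sp (by norm_num),
    ZMod.card] at h
  simp [Finset.prod_range_succ] at h
  show Nat.card (Matrix.symplecticGroup (Fin 2) (ZMod 3) ⧸ Subgroup.center _) = _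
  omega

theorem nonempty_quot_equiv : Nonempty (H ⧸ QH ≃* P4) := by
  haveI : Fact (Nat.Prime 2) := ⟨Nat.prime_two⟩
  letI : Fintype (GaloisField 2 2) := Fintype.ofFinite _
  have hK : Fintype.card (GaloisField 2 2) = 2 ^ 2 := by
    rw [← Nat.card_eq_fintype_card]; exact GaloisField.card 2 2 two_ne_zero
  obtain ⟨e1⟩ := Cfsg.Agent.S0303.result (F := ZMod 2) (K := GaloisField 2 2) (q := 2) (ZMod.card 2) hK
    1 1 minus_aniso
  obtain ⟨e2⟩ := Cfsg.Agent.S0822.result (F := GaloisField 2 2) (K := ZMod 3) hK (ZMod.card 3)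
  let W := Cfsg.Omega (ZMod 2) (Cfsg.quadFormMinus 2 (ZMod 2) 1 1)
  have hW : Nat.card W = 25920 := by
    have := card_Omega
    show Nat.card (Cfsg.Omega (ZMod 2) (Cfsg.quadFormMinus 2 (ZMod 2) 1 1)) = 25920
    omega
  have h := Subgroup.card_eq_card_quotient_mul_card_subgroup (Subgroup.center W)
  have hq : Nat.card (W ⧸ Subgroup.center W) = 25920 :=
    (Nat.card_congr (e1.trans e2).toEquiv).trans card_P4
  rw [hq, hW] at h
  have hbot : Subgroup.center W = ⊥ := Subgroup.card_eq_one.1 (by omega)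
  exact ⟨quotEquiv.trans (((QuotientGroup.quotientMulEquivOfEq hbot).trans
    QuotientGroup.quotientBot).symm.trans (e1.trans e2))⟩

theorem isSimple_P4 : IsSimpleGroup P4 :=
  Cfsg.Agent.S0270.result 2 le_rfl fun _ => by rw [ZMod.card]

theorem perfect_P4 : commutator P4 = ⊤ := by
  haveI := isSimple_P4
  rcases (Subgroup.Normal.eq_bot_or_eq_top (H := commutator P4) inferInstance) with h | h
  · exfalso
    haveI : IsMulCommutative P4 := ⟨⟨fun a b => by
      have hm : ⁅a, b⁆ ∈ commutator P4 :=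
        Subgroup.commutator_mem_commutator (Subgroup.mem_top a) (Subgroup.mem_top b)
      rw [h, Subgroup.mem_bot] at hm
      exact commutatorElement_eq_one_iff_mul_comm.1 hm⟩⟩
    letI : CommGroup P4 := { (inferInstance : Group P4) with mul_comm := mul_comm' }
    have hp := IsSimpleGroup.prime_card (α := P4)
    rw [card_P4] at hp
    norm_num at hp
  · exact h

/-- Words of fixed-point-free elements, from one to its image under each generator. -/
def chainF (k : Fin 2) : List (List (Fin 2)) :=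
  if k = 0 then [[0, 0, 0]] else [[0, 0, 0], [1, 1, 1, 1], [1, 0, 0, 0, 0, 1, 0, 1, 0, 1, 0]]

theorem fpf_ok : ∀ k : Fin 2, ∀ s ∈ chainF k, ∀ v : V, v = 0 ∨ wAct s v ≠ v := by
  intro k s hs
  fin_cases k <;> simp only [chainF] at hs <;> revert hs <;> revert s <;> decide +kernel

theorem chain_ok : ∀ k : Fin 2, ∀ v : V,
    (∀ p ∈ (chainF k).zip (chainF k).tail, wAct p.1 (wAct p.2 v) = wAct p.2 (wAct p.1 v)) ∧
      colMap k (wAct [0, 0, 0] v) = wAct ((chainF k).getLastD []) (colMap k v) := by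
  intro k
  rw [forall_vec]
  revert k; decide +kernel

/-- The summands of the basis vectors in the orbit of the second one. -/
def spanIdx : List (List ℕ) := [[0, 1, 2, 15], [0], [0, 2], [0, 1], [3, 5], [4, 5]]

theorem span_fV : ∀ i : Fin 6, (∀ a ∈ spanIdx.getD i.1 [], a < (transv 1).length) ∧
    bI i = ((spanIdx.getD i.1 []).map fun a => ((transv 1).getD a (0, [])).1).sum := by decide +kernel

theorem noncomm_ok : eEquiv [0, 1] [1, 0] = false := by decide +kernel

theorem bI_ef : bI 0 = eV ∧ bI 1 = fV ∧ cBase.getD 0 0 = eV ∧ cBase.getD 1 0 = fV := by decide +kernel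

end CfsgLib.SuzMult.Two
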